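import Mathlib

/-!
The linear part of the proof of Thompson's theorem on solvable groups with one class of
involutions: an anisotropic quadratic map of an elementary abelian 2-group onto a space of
dimension `n ≥ 2` with equal fibres admits no `n` commuting dihedral pairs acting quadratically.
-/

set_option autoImplicit false

namespace CfsgLib.OneClassInvolutions

section Avg

variable {R : Type*} [Ring R] {u : R} {r : ℕ}

theorem add_self_of (h2 : (1 : R) + 1 = 0) (a : R) : a + a = 0 := by
  have := congrArg (fun e => e * a) h2
  simpa [add_mul] using this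

theorem mul_sum_pow_of_pow_eq_one (hr : u ^ r = 1) :
    u * (∑ k ∈ Finset.range r, u ^ k) = ∑ k ∈ Finset.range r, u ^ k := by
  rw [Finset.mul_sum]
  rcases r with _ | r
  · simp
  rw [Finset.sum_range_succ, Finset.sum_range_succ' (fun k => u ^ k)]
  simp only [← pow_succ', hr, pow_zero]

theorem pow_mul_sum (hr : u ^ r = 1) (j : ℕ) :
    u ^ j * (∑ k ∈ Finset.range r, u ^ k) = ∑ k ∈ Finset.range r, u ^ k := by
  induction j with
  | zero => rw [pow_zero, one_mul]
  | succ j ih => rw [pow_succ, mul_assoc, mul_sum_pow_of_pow_eq_one hr, ih]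

theorem sum_mul_of_forall_fixed (h2 : (1 : R) + 1 = 0) (hodd : Odd r) {a : R}
    (h : u * a = a) : (∑ k ∈ Finset.range r, u ^ k) * a = a := by
  have hk : ∀ k : ℕ, u ^ k * a = a := by
    intro k
    induction k with
    | zero => rw [pow_zero, one_mul]
    | succ k ih => rw [pow_succ, mul_assoc, h, ih]
  rw [Finset.sum_mul, Finset.sum_congr rfl (fun k _ => hk k), Finset.sum_const, Finset.card_range]
  obtain ⟨m, rfl⟩ := hodd
  rw [succ_nsmul, two_mul, add_nsmul, add_self_of h2, zero_add]

theorem sum_conj_eq (h2 : (1 : R) + 1 = 0) (hodd : Odd r) {t : R} (ht : t * t = 1)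
    (hr : u ^ r = 1) (hinv : t * u * t * u = 1) :
    t * (∑ k ∈ Finset.range r, u ^ k) = (∑ k ∈ Finset.range r, u ^ k) * t := by
  set A := ∑ k ∈ Finset.range r, u ^ k
  set u' := t * u * t with hu'
  set A' := ∑ k ∈ Finset.range r, u' ^ k
  have hpow : ∀ k : ℕ, u' ^ k = t * u ^ k * t := by
    intro k
    induction k with
    | zero => rw [pow_zero, pow_zero, mul_one, ht]
    | succ k ih =>
      rw [pow_succ, ih, hu', pow_succ u]
      calc t * u ^ k * t * (t * u * t) = t * u ^ k * (t * t) * u * t := by simp only [mul_assoc]
        _ = t * (u ^ k * u) * t := by rw [ht, mul_one]; simp only [mul_assoc]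
  have hA' : A' = t * A * t := by
    simp only [A', A, hpow, ← Finset.sum_mul, ← Finset.mul_sum]
  have hr' : u' ^ r = 1 := by rw [hpow, hr, mul_one, ht]
  have huA : u * A = A := mul_sum_pow_of_pow_eq_one hr
  have hu'A : u' * A = A := by
    conv_lhs => rw [← huA, ← mul_assoc, hu', hinv, one_mul]
  have huA' : u * A' = A' := by
    have h1 : u * u' = 1 := by
      have h3 : u' * u = 1 := hinv
      have h4 : u' = u ^ (r - 1) := by
        have hr1 : u * u ^ (r - 1) = 1 := by
          rw [← pow_succ', Nat.sub_add_cancel hodd.pos, hr]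
        calc u' = u' * (u * u ^ (r - 1)) := by rw [hr1, mul_one]
          _ = u ^ (r - 1) := by rw [← mul_assoc, h3, one_mul]
      rw [h4, ← pow_succ', Nat.sub_add_cancel hodd.pos, hr]
    calc u * A' = u * (u' * A') := by rw [mul_sum_pow_of_pow_eq_one hr']
      _ = A' := by rw [← mul_assoc, h1, one_mul]
  have hcomm : Commute A A' := by
    refine Commute.sum_left _ _ _ fun i _ => Commute.sum_right _ _ _ fun j _ => ?_
    refine Commute.pow_pow ?_ i j
    have hr1 : u' = u ^ (r - 1) := by
      have hr2 : u * u ^ (r - 1) = 1 := by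
        rw [← pow_succ', Nat.sub_add_cancel hodd.pos, hr]
      calc u' = u' * (u * u ^ (r - 1)) := by rw [hr2, mul_one]
        _ = u ^ (r - 1) := by rw [← mul_assoc, hinv, one_mul]
    rw [hr1]
    exact (Commute.refl u).pow_right _
  have e1 : A' * A = A := sum_mul_of_forall_fixed h2 hodd hu'A
  have e2 : A * A' = A' := sum_mul_of_forall_fixed h2 hodd huA'
  have e3 : A = A' := by rw [← e1, ← hcomm.eq, e2]
  calc t * A = t * A * (t * t) := by rw [ht, mul_one]
    _ = A' * t := by rw [hA']; simp only [mul_assoc]
    _ = A * t := by rw [← e3]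

end Avg

variable {W U : Type*} [AddCommGroup W] [Finite W] [AddCommGroup U] [Finite U]

/-- The polar form of a map between elementary abelian 2-groups. -/
def polar (q : W → U) (x y : W) : U := q (x + y) + q x + q y

theorem polar_comm (q : W → U) (x y : W) : polar q x y = polar q y x := by
  unfold polar
  rw [add_comm x y]
  abel

/-- The configuration is impossible. -/
theorem false_of_pairs (hW : ∀ w : W, w + w = 0) (hU : ∀ v : U, v + v = 0) (q : W → U)
    (hq : q 0 = 0) (hq0 : ∀ w, q w = 0 → w = 0)
    (hadd : ∀ x y z, polar q (x + y) z = polar q x z + polar q y z)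
    (hfib : ∀ v v' : U, v ≠ 0 → v' ≠ 0 →
      Nat.card {w // q w = v} = Nat.card {w // q w = v'})
    (n : ℕ) (hn : 2 ≤ n) (C : AddSubgroup W) (hC : Nat.card C = 2 ^ n)
    (hUc : Nat.card U = 2 ^ n) (hCb : ∀ c ∈ C, ∀ d ∈ C, polar q c d = 0)
    (t u : Fin n → AddMonoid.End W) (ht2 : ∀ i, t i * t i = 1)
    (htq : ∀ i w, q (t i w) = q w) (huq : ∀ i w, q (u i w) = q w)
    (htC : ∀ i w, t i w + w ∈ C) (htfix : ∀ i, ∀ c ∈ C, t i c = c)
    (r : Fin n → ℕ) (hodd : ∀ i, Odd (r i)) (hr : ∀ i, u i ^ r i = 1) (hu1 : ∀ i, u i ≠ 1)
    (huu : ∀ i j, i ≠ j → Commute (u i) (u j)) (htu : ∀ i j, i ≠ j → Commute (t i) (u j))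
    (hinv : ∀ i, t i * u i * t i * u i = 1) : False := by
  classical
  have h2 : (1 : AddMonoid.End W) + 1 = 0 := AddMonoidHom.ext fun w => hW w
  let A : Fin n → AddMonoid.End W := fun i => ∑ k ∈ Finset.range (r i), u i ^ k
  let E : Fin n → AddMonoid.End W := fun i => 1 + A i
  have hadd' : ∀ x y z, polar q x (y + z) = polar q x y + polar q x z := fun x y z => by
    rw [polar_comm, hadd, polar_comm q y, polar_comm q z]
  have hqadd : ∀ x y, polar q x y = 0 → q (x + y) = q x + q y := fun x y h => by
    unfold polar at h
    calc q (x + y) = q (x + y) + q x + q y + (q x + q y) := by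
          rw [show q (x + y) + q x + q y + (q x + q y) =
            q (x + y) + (q x + q x) + (q y + q y) by abel, hU, hU, add_zero, add_zero]
      _ = q x + q y := by rw [h, zero_add]
  have hAu : ∀ i, u i * A i = A i := fun i => mul_sum_pow_of_pow_eq_one (hr i)
  have hAA : ∀ i, A i * A i = A i := fun i => sum_mul_of_forall_fixed h2 (hodd i) (hAu i)
  have hEE : ∀ i, E i * E i = E i := fun i => by
    simp only [E]
    calc (1 + A i) * (1 + A i) = 1 + (A i + A i) + A i * A i := by noncomm_ring
      _ = 1 + A i := by rw [add_self_of h2, add_zero, hAA]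
  have huE : ∀ i j, Commute (u i) (E j) := by
    intro i j
    refine (Commute.one_right _).add_right (Commute.sum_right _ _ _ fun k _ => ?_)
    by_cases h : i = j
    · subst h; exact (Commute.refl _).pow_right k
    · exact (huu i j h).pow_right k
  have hEc : ∀ i j, Commute (E i) (E j) := fun i j =>
    (Commute.one_left _).add_left (Commute.sum_left _ _ _ fun k _ => (huE i j).pow_left k)
  have htE : ∀ i j, Commute (t i) (E j) := by
    intro i j
    refine (Commute.one_right _).add_right ?_
    by_cases h : i = j
    · subst h; exact sum_conj_eq h2 (hodd i) (ht2 i) (hr i) (hinv i)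
    · exact Commute.sum_right _ _ _ fun k _ => (htu i j h).pow_right k
  have happ : ∀ (s : Finset ℕ) (f : ℕ → AddMonoid.End W) (w : W),
      (∑ k ∈ s, f k) w = ∑ k ∈ s, f k w := fun s f w => AddMonoidHom.finsetSum_apply (fun k => (f k : W →+ W)) s w
  have app : ∀ {f g : AddMonoid.End W}, Commute f g → ∀ w, f (g w) = g (f w) := fun h w =>
    DFunLike.congr_fun h.eq w
  have hfixA : ∀ i w, u i w = w → E i w = 0 := by
    intro i w h
    have hk : ∀ k : ℕ, (u i ^ k) w = w := by
      intro k
      induction k with
      | zero => rw [pow_zero]; rfl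
      | succ k ih => rw [pow_succ]; exact (congrArg (u i ^ k) h).trans ih
    show w + A i w = 0
    have : A i w = w := by
      show (∑ k ∈ Finset.range (r i), u i ^ k) w = w
      rw [happ, Finset.sum_congr rfl (fun k _ => hk k), Finset.sum_const,
        Finset.card_range]
      obtain ⟨m, hm⟩ := hodd i
      rw [hm, succ_nsmul, two_mul, add_nsmul, hW, zero_add]
    rw [this, hW]
  have hE0fix : ∀ i w, E i w = 0 → u i w = w := by
    intro i w h
    have h1 : A i w = w := by
      have h' : w + A i w = 0 := h
      calc A i w = w + (w + A i w) := by rw [← add_assoc, hW, zero_add]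
        _ = w := by rw [h', add_zero]
    conv_lhs => rw [← h1]
    exact (DFunLike.congr_fun (hAu i) w).trans h1
  -- a vector fixed by `t i` in the image of `E i` lies in `C`
  have hK : ∀ i y, E i y = y → t i y = y → y ∈ C := by
    intro i y hEy hty
    obtain ⟨m, hm⟩ := hodd i
    have hAy : A i y = 0 := by
      have h' : y + A i y = y := hEy
      exact left_eq_add.mp h'.symm
    let z : W := (∑ k ∈ Finset.range m, u i ^ (k + 1)) y
    have hur : ∀ k ≤ r i, t i * u i ^ k * t i = u i ^ (r i - k) := by
      intro k
      induction k with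
      | zero => intro _; rw [pow_zero, mul_one, ht2, Nat.sub_zero, hr]
      | succ k ih =>
        intro hk
        have h3 : t i * u i * t i = u i ^ (r i - 1) := by
          calc t i * u i * t i = t i * u i * t i * (u i * u i ^ (r i - 1)) := by
                rw [← pow_succ', Nat.sub_add_cancel (hodd i).pos, hr, mul_one]
            _ = u i ^ (r i - 1) := by rw [← mul_assoc, hinv, one_mul]
        calc t i * u i ^ (k + 1) * t i = (t i * u i ^ k * t i) * (t i * u i * t i) := by
              rw [pow_succ]
              simp only [mul_assoc]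
              rw [← mul_assoc (t i) (t i), ht2, one_mul]
          _ = u i ^ (r i - (k + 1) + r i) := by
              rw [ih (by omega), h3, ← pow_add]
              congr 1; omega
          _ = u i ^ (r i - (k + 1)) := by rw [pow_add, hr, mul_one]
    have htz : t i z = (∑ k ∈ Finset.range m, u i ^ (m + 1 + k)) y := by
      show t i ((∑ k ∈ Finset.range m, u i ^ (k + 1)) y) = _
      rw [happ, happ, map_sum,
        ← Finset.sum_range_reflect (fun k => (u i ^ (m + 1 + k)) y) m]
      refine Finset.sum_congr rfl fun k hk => ?_
      rw [Finset.mem_range] at hk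
      have h4 := DFunLike.congr_fun (hur (k + 1) (by omega)) y
      have h5 : (t i * u i ^ (k + 1) * t i) y = t i ((u i ^ (k + 1)) (t i y)) := rfl
      rw [h5, hty] at h4
      rw [h4, show r i - (k + 1) = m + 1 + (m - 1 - k) by omega]
    have hsum : t i z + z = y := by
      have h6 : A i = (∑ k ∈ Finset.range m, u i ^ (m + 1 + k)) +
          (∑ k ∈ Finset.range m, u i ^ (k + 1)) + 1 := by
        show (∑ k ∈ Finset.range (r i), u i ^ k) = _
        rw [hm, show 2 * m + 1 = (m + m) + 1 by omega, Finset.sum_range_succ',
          Finset.sum_range_add, pow_zero]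
        simp only [show ∀ k, m + k + 1 = m + 1 + k from fun k => by omega]
        abel
      have h7 : A i y = t i z + z + y := by rw [h6, htz]; rfl
      rw [hAy] at h7
      calc t i z + z = (t i z + z + y) + y := by rw [add_assoc _ y y, hW, add_zero]
        _ = y := by rw [← h7, zero_add]
    rw [← hsum]
    exact htC i z
  -- nothing of the image of `E i` is fixed by `t i` and moved into itself
  have hstuck : ∀ i j y, E i y = y → E j y = y → t j y = y → i ≠ j → y = 0 := by
    intro i j y hi hj hty hij
    have h1 : t i y = y := htfix i y (hK j y hj hty)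
    have hj' : E j (u i y) = u i y := by rw [← app (huE i j), hj]
    have hty' : t j (u i y) = u i y := by rw [app (htu j i hij.symm), hty]
    have h3 : t i (u i y) = u i y := htfix i _ (hK j _ hj' hty')
    have h4 : t i (u i (t i (u i y))) = y := DFunLike.congr_fun (hinv i) y
    rw [h3] at h4
    have h5 : u i (u i y) = y := by
      have hy2 : t i (t i (u i (u i y))) = t i y := congrArg (t i) h4
      have h6 : t i (t i (u i (u i y))) = u i (u i y) := DFunLike.congr_fun (ht2 i) _
      rw [← h6, hy2, h1]
    obtain ⟨m, hm⟩ := hodd i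
    have h7 : ∀ k : ℕ, (u i ^ (2 * k)) y = y := by
      intro k
      induction k with
      | zero => rw [mul_zero, pow_zero]; rfl
      | succ k ih =>
        rw [show 2 * (k + 1) = 2 * k + 1 + 1 by omega, pow_succ, pow_succ]
        exact (congrArg (u i ^ (2 * k)) h5).trans ih
    have h8 : u i y = y := by
      have h9 := DFunLike.congr_fun (hr i) y
      rw [hm, pow_succ'] at h9
      exact (congrArg (u i) (h7 m)).symm.trans h9
    rw [← hi]
    exact hfixA i y h8
  have horth : ∀ i j, i ≠ j → ∀ w, E i (E j w) = 0 := by
    intro i j hij w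
    set x := E i (E j w) with hx
    have hi : E i x = x := DFunLike.congr_fun (hEE i) _
    have hj : E j x = x := by
      rw [hx, app (hEc j i), show E j (E j w) = E j w from DFunLike.congr_fun (hEE j) w]
    have h0 : t j x + x = 0 := by
      refine hstuck i j _ ?_ ?_ ?_ hij
      · rw [map_add, ← app (htE j i), hi]
      · rw [map_add, ← app (htE j j), hj]
      · rw [map_add, show t j (t j x) = x from DFunLike.congr_fun (ht2 j) x, add_comm]
    have h1 : t j x = x := by
      calc t j x = t j x + x + x := by rw [add_assoc, hW, add_zero]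
        _ = x := by rw [h0, zero_add]
    exact hstuck i j x hi hj h1 hij
  -- the vectors `c i`
  have hd : ∀ i, ∃ d, E i d = d ∧ t i d + d ≠ 0 := by
    intro i
    by_contra hcon
    push Not at hcon
    refine hu1 i (AddMonoidHom.ext fun w => hE0fix i w ?_)
    set x := E i w with hx
    have hEx : E i x = x := DFunLike.congr_fun (hEE i) w
    have hfix : ∀ z, E i z = z → t i z = z := fun z hz => by
      calc t i z = t i z + z + z := by rw [add_assoc, hW, add_zero]
        _ = z := by rw [hcon z hz, zero_add]
    have h1 := hfix x hEx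
    have h2' := hfix (u i x) (by rw [← app (huE i i), hEx])
    have h4 : t i (u i (t i (u i x))) = x := DFunLike.congr_fun (hinv i) x
    rw [h2', hfix (u i (u i x)) (by rw [← app (huE i i), ← app (huE i i), hEx])] at h4
    obtain ⟨m, hm⟩ := hodd i
    have h7 : ∀ k : ℕ, (u i ^ (2 * k)) x = x := by
      intro k
      induction k with
      | zero => rw [mul_zero, pow_zero]; rfl
      | succ k ih =>
        rw [show 2 * (k + 1) = 2 * k + 1 + 1 by omega, pow_succ, pow_succ]
        exact (congrArg (u i ^ (2 * k)) h4).trans ih
    have h9 := DFunLike.congr_fun (hr i) x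
    rw [hm, pow_succ'] at h9
    have h8 : u i x = x := (congrArg (u i) (h7 m)).symm.trans h9
    rw [← hEx]
    exact hfixA i x h8
  choose d hEd hd0 using hd
  let c : Fin n → W := fun i => t i (d i) + d i
  have hcC : ∀ i, c i ∈ C := fun i => htC i _
  have hEc' : ∀ i, E i (c i) = c i := fun i => by
    show E i (t i (d i) + d i) = t i (d i) + d i
    rw [map_add, ← app (htE i i), hEd]
  have hEij : ∀ i j, i ≠ j → ∀ x, E j x = x → E i x = 0 := fun i j hij x hx => by
    rw [← hx]; exact horth i j hij x
  let σ : (Fin n → Bool) → W := fun f => ∑ i, if f i then c i else 0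
  have hEσ : ∀ i f, E i (σ f) = if f i then c i else 0 := by
    intro i f
    show E i (∑ j, if f j then c j else 0) = _
    rw [map_sum, Finset.sum_eq_single i]
    · split_ifs
      · exact hEc' i
      · exact map_zero _
    · intro j _ hji
      split_ifs
      · exact hEij i j hji.symm _ (hEc' j)
      · exact map_zero _
    · exact fun h => absurd (Finset.mem_univ i) h
  have hσC : ∀ f, σ f ∈ C := fun f => AddSubgroup.sum_mem _ fun i _ => by
    split_ifs
    · exact hcC i
    · exact C.zero_mem
  have hσinj : Function.Injective σ := by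
    intro f g h
    funext i
    have h1 := congrArg (E i) h
    rw [hEσ, hEσ] at h1
    have hci : c i ≠ 0 := hd0 i
    cases hf : f i <;> cases hg : g i <;> simp_all
  have hσsurj : ∀ x ∈ C, ∃ f, σ f = x := by
    intro x hx
    have hbij : Function.Bijective (fun f => (⟨σ f, hσC f⟩ : C)) :=
      (Nat.bijective_iff_injective_and_card _).mpr
        ⟨fun f g h => hσinj (congrArg Subtype.val h), by
          rw [hC, Nat.card_eq_fintype_card, Fintype.card_fun, Fintype.card_bool, Fintype.card_fin]⟩
    obtain ⟨f, hf⟩ := hbij.2 ⟨x, hx⟩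
    exact ⟨f, congrArg Subtype.val hf⟩
  have hCi : ∀ i x, x ∈ C → E i x = x → x = 0 ∨ x = c i := by
    intro i x hx hEx
    obtain ⟨f, rfl⟩ := hσsurj x hx
    rw [hEσ] at hEx
    rw [← hEx]
    split_ifs <;> simp
  -- the images of `E i` have four elements
  have hWi : ∀ i x, E i x = x → x = 0 ∨ x = c i ∨ x = d i ∨ x = c i + d i := by
    intro i x hx
    have hfix : ∀ y, E i y = y → t i y + y = 0 → y = 0 ∨ y = c i := fun y hy h => by
      refine hCi i y (hK i y hy ?_) hy
      calc t i y = t i y + y + y := by rw [add_assoc, hW, add_zero]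
        _ = y := by rw [h, zero_add]
    rcases hCi i _ (htC i x) (by rw [map_add, ← app (htE i i), hx]) with h | h
    · rcases hfix x hx h with h' | h'
      · exact .inl h'
      · exact .inr (.inl h')
    · have h1 : t i (x + d i) + (x + d i) = 0 := by
        rw [map_add, show t i x + t i (d i) + (x + d i) = (t i x + x) + c i by
          simp only [c]; abel, h, hW]
      have e : x = (x + d i) + d i := by rw [add_assoc, hW, add_zero]
      rcases hfix (x + d i) (by rw [map_add, hx, hEd]) h1 with h' | h'
      · exact .inr (.inr (.inl (by rw [e, h', zero_add])))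
      · exact .inr (.inr (.inr (by rw [e, h'])))
  have hne : ∀ i, d i ≠ 0 ∧ c i ≠ 0 ∧ d i ≠ c i := fun i => by
    refine ⟨fun h => hd0 i (by rw [h, map_zero, add_zero]), hd0 i, fun h => hd0 i ?_⟩
    rw [h, htfix i _ (hcC i), hW]
  have hu3 : ∀ i, (u i (c i) = d i ∧ u i (d i) = c i + d i) ∨
      (u i (c i) = c i + d i ∧ u i (d i) = c i) := by
    intro i
    obtain ⟨hd0', hc0, hdc⟩ := hne i
    have hinj : Function.Injective (u i) := by
      intro a b hab
      have h1 := congrArg (u i ^ (r i - 1)) hab
      have h2' : ∀ a, (u i ^ (r i - 1)) (u i a) = a := fun a => by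
        have := DFunLike.congr_fun (hr i) a
        rwa [← Nat.sub_add_cancel (hodd i).pos, pow_succ] at this
      rwa [h2', h2'] at h1
    have hmove : ∀ x, x ≠ 0 → E i x = x → u i x ≠ x ∧ u i x ≠ 0 ∧ E i (u i x) = u i x :=
      fun x hx hEx => ⟨fun h => hx (hEx.symm.trans (hfixA i x h)),
        fun h => hx (hinj (h.trans (map_zero _).symm)), by rw [← app (huE i i), hEx]⟩
    have hcd : c i + d i ≠ 0 := fun h => hdc (by
      calc d i = c i + d i + c i := by rw [add_comm (c i) (d i), add_assoc, hW, add_zero]
        _ = c i := by rw [h, zero_add])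
    obtain ⟨m1, m2, m3⟩ := hmove (c i) hc0 (hEc' i)
    obtain ⟨n1, n2, n3⟩ := hmove (d i) hd0' (hEd i)
    obtain ⟨l1, -, -⟩ := hmove (c i + d i) hcd (by rw [map_add, hEc', hEd])
    rcases hWi i _ m3 with h | h | h | h
    · exact absurd h m2
    · exact absurd h m1
    · left
      refine ⟨h, ?_⟩
      rcases hWi i _ n3 with g | g | g | g
      · exact absurd g n2
      · exfalso; refine l1 ?_; rw [map_add, h, g, add_comm]
      · exact absurd g n1
      · exact g
    · right
      refine ⟨h, ?_⟩
      rcases hWi i _ n3 with g | g | g | g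
      · exact absurd g n2
      · exact g
      · exact absurd g n1
      · exact absurd (hinj (h.trans g.symm)) hdc.symm
  have hqconst : ∀ i x, E i x = x → x ≠ 0 → q x = q (c i) := by
    intro i x hx h0
    rcases hWi i x hx with h | h | h | h
    · exact absurd h h0
    · rw [h]
    · rcases hu3 i with ⟨a1, -⟩ | ⟨-, a2⟩
      · rw [h, ← a1, huq]
      · rw [h, ← huq i (d i), a2]
    · rcases hu3 i with ⟨a1, a2⟩ | ⟨a1, -⟩
      · rw [h, ← a2, huq, ← a1, huq]
      · rw [h, ← a1, huq]
  -- the images of different `E i` are orthogonal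
  have hbzero : polar q 0 0 = 0 ∧ ∀ y, polar q 0 y = 0 := by
    constructor
    · simp [polar, hq]
    · intro y; simp [polar, hq, hU]
  have hperp : ∀ i j, i ≠ j → ∀ x y, E i x = x → E j y = y → polar q x y = 0 := by
    intro i j hij x y hx hy
    have huy : u i y = y := hE0fix i y (hEij i j hij y hy)
    have hone : ∀ z, polar q (u i z + z) y = 0 := fun z => by
      rw [hadd]
      have : polar q (u i z) y = polar q z y := by
        conv_lhs => rw [← huy]
        show q (u i z + u i y) + q (u i z) + q (u i y) = _
        rw [← map_add, huq, huq, huq]; rfl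
      rw [this, hU]
    have hsurj : ∃ z, u i z + z = x := by
      rcases hWi i x hx with h | h | h | h
      · exact ⟨0, by rw [map_zero, add_zero, h]⟩
      all_goals rcases hu3 i with ⟨a1, a2⟩ | ⟨a1, a2⟩
      · exact ⟨d i, by rw [a2, add_assoc, hW, add_zero, h]⟩
      · exact ⟨c i + d i, by
          rw [map_add, a1, a2, h,
            show c i + d i + c i + (c i + d i) = (c i + c i) + (c i + d i + d i) - 0 by abel]
          rw [hW, sub_zero, zero_add, add_assoc, hW, add_zero]⟩
      · exact ⟨c i + d i, by
          rw [map_add, a1, a2, h,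
            show d i + (c i + d i) + (c i + d i) = d i + ((c i + d i) + (c i + d i)) by abel,
            hW, add_zero]⟩
      · exact ⟨c i, by rw [a1, h, add_comm (c i) (d i), add_assoc, hW, add_zero]⟩
      · exact ⟨c i, by rw [a1, h, add_comm]⟩
      · exact ⟨d i, by rw [a2, h]⟩
    obtain ⟨z, rfl⟩ := hsurj
    exact hone z
  -- `q` is bijective on `C`
  have hqC : ∀ v : U, ∃ x ∈ C, q x = v := by
    have hbij : Function.Bijective (fun x : C => q (x : W)) :=
      (Nat.bijective_iff_injective_and_card _).mpr ⟨fun a b h => by
        have h1 : q ((a : W) + b) = 0 := by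
          rw [hqadd _ _ (hCb _ a.2 _ b.2)]
          show q (a : W) + q (b : W) = 0
          rw [show q (a : W) = q (b : W) from h, hU]
        have h2' := hq0 _ h1
        exact Subtype.ext (by
          calc (a : W) = a + b + b := by rw [add_assoc, hW, add_zero]
            _ = b := by rw [h2', zero_add]), by rw [hC, hUc]⟩
    intro v
    obtain ⟨x, hx⟩ := hbij.2 v
    exact ⟨x, x.2, hx⟩
  -- no fixed part
  have hsumE : ∀ w, w = ∑ i, E i w := by
    intro w
    set y := w + ∑ i, E i w with hy
    have hEy : ∀ j, E j y = 0 := by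
      intro j
      rw [hy, map_add, map_sum, Finset.sum_eq_single j (fun i _ hij => horth j i (Ne.symm hij) w)
        (fun h => absurd (Finset.mem_univ j) h), show E j (E j w) = E j w from
        DFunLike.congr_fun (hEE j) w, hW]
    have hty : ∀ i, t i y = y := by
      intro i
      obtain ⟨f, hf⟩ := hσsurj _ (htC i y)
      have : σ f = 0 := by
        show (∑ j, if f j then c j else 0) = 0
        refine Finset.sum_eq_zero fun j _ => ?_
        rw [← hEσ, hf, map_add, ← app (htE i j), hEy, map_zero, add_zero]
      rw [hf] at this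
      calc t i y = t i y + y + y := by rw [add_assoc, hW, add_zero]
        _ = y := by rw [this, zero_add]
    have hby : ∀ i, polar q y (c i) = 0 := fun i => by
      show polar q y (t i (d i) + d i) = 0
      rw [hadd']
      have : polar q y (t i (d i)) = polar q y (d i) := by
        conv_lhs => rw [← hty i]
        show q (t i y + t i (d i)) + q (t i y) + q (t i (d i)) = _
        rw [← map_add, htq, htq, htq]; rfl
      rw [this, hU]
    obtain ⟨x, hx, hqx⟩ := hqC (q y)
    obtain ⟨f, rfl⟩ := hσsurj x hx
    have hb : polar q y (σ f) = 0 := by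
      show polar q y (∑ j, if f j then c j else 0) = 0
      refine Finset.sum_induction _ (fun z => polar q y z = 0) (fun a b ha hb => by
        rw [hadd', ha, hb, add_zero]) (by rw [polar_comm]; exact hbzero.2 y) fun j _ => ?_
      split_ifs
      · exact hby j
      · rw [polar_comm]; exact hbzero.2 y
    have hz : y + σ f = 0 := hq0 _ (by rw [hqadd _ _ hb, hqx, hU])
    have hy0 : y = σ f := by
      calc y = y + σ f + σ f := by rw [add_assoc, hW, add_zero]
        _ = σ f := by rw [hz, zero_add]
    have hy1 : y = 0 := by
      rw [hy0]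
      show (∑ j, if f j then c j else 0) = 0
      refine Finset.sum_eq_zero fun j _ => ?_
      rw [← hEσ, ← hy0, hEy]
    calc w = w + (∑ i, E i w) + (∑ i, E i w) := by rw [add_assoc, hW, add_zero]
      _ = ∑ i, E i w := by rw [← hy, hy1, zero_add]
  -- `q` in terms of the components
  have hqsum : ∀ w, q w = q (σ (fun i => decide (E i w ≠ 0))) := by
    intro w
    have key : ∀ s : Finset (Fin n), ∀ g : Fin n → W, (∀ i, E i (g i) = g i) →
        q (∑ i ∈ s, g i) = ∑ i ∈ s, q (g i) := by
      intro s g hg
      induction s using Finset.induction with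
      | empty => simp [hq]
      | insert a s has ih =>
        rw [Finset.sum_insert has, Finset.sum_insert has, hqadd, ih]
        refine Finset.sum_induction _ (fun z => polar q (g a) z = 0) (fun x y hx hy => by
          rw [hadd', hx, hy, add_zero]) (by rw [polar_comm]; exact hbzero.2 _) fun j hj => ?_
        exact hperp a j (fun h => has (h ▸ hj)) _ _ (hg a) (hg j)
    conv_lhs => rw [hsumE w]
    refine (key Finset.univ (fun i => E i w) (fun i => DFunLike.congr_fun (hEE i) w)).trans ?_
    refine Eq.trans ?_ (key Finset.univ (fun i => if decide (E i w ≠ 0) then c i else 0)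
      (fun i => by split_ifs; exacts [hEc' i, map_zero _])).symm
    refine Finset.sum_congr rfl fun i _ => ?_
    by_cases h : E i w = 0
    · simp [h]
    · simp only [h, ne_eq, not_false_eq_true, decide_true, if_true]
      exact hqconst i _ (DFunLike.congr_fun (hEE i) w) h
  have hqσ : ∀ f g, q (σ f) = q (σ g) → f = g := by
    intro f g h
    refine hσinj ?_
    have h1 : q (σ f + σ g) = 0 := by rw [hqadd _ _ (hCb _ (hσC f) _ (hσC g)), h, hU]
    calc σ f = σ f + σ g + σ g := by rw [add_assoc, hW, add_zero]
      _ = σ g := by rw [hq0 _ h1, zero_add]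
  -- the two fibres
  let a : Fin n := ⟨0, by omega⟩
  let b : Fin n := ⟨1, by omega⟩
  have hab : a ≠ b := by simp [a, b, Fin.ext_iff]
  have hsupp : ∀ w, q w = q (c a) → w = c a ∨ w = d a ∨ w = c a + d a := by
    intro w hw
    let f : Fin n → Bool := fun i => decide (i = a)
    have hσf : σ f = c a := by
      show (∑ i, if decide (i = a) then c i else 0) = c a
      rw [Finset.sum_eq_single a (fun i _ hi => by simp [hi]) (fun h => absurd (Finset.mem_univ a) h)]
      simp
    have h1 := hqσ _ _ ((hqsum w).symm.trans (hw.trans (congrArg q hσf.symm)))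
    have hw' : w = E a w := by
      conv_lhs => rw [hsumE w]
      refine Finset.sum_eq_single a (fun i _ hi => ?_) (fun h => absurd (Finset.mem_univ a) h)
      have := congrFun h1 i
      simpa [f, hi] using this
    rcases hWi a w hw'.symm with h | h
    · exfalso
      rw [h, hq] at hw
      exact (hne a).2.1 (hq0 _ hw.symm)
    · exact h
  have hsmall : Nat.card {w // q w = q (c a)} ≤ 3 := by
    have h1 := Nat.card_le_card_of_injective
      (fun w : {w // q w = q (c a)} => (⟨w.1, by
        rcases hsupp w.1 w.2 with h | h | h <;> simp [h]⟩ : ↥({c a, d a, c a + d a} : Finset W)))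
      (fun x y h => Subtype.ext (congrArg (fun z : ↥({c a, d a, c a + d a} : Finset W) => (z : W)) h))
    rw [Nat.card_eq_fintype_card (α := ↥({c a, d a, c a + d a} : Finset W)), Fintype.card_coe] at h1
    exact h1.trans Finset.card_le_three
  have hqab : ∀ x y, E a x = x → x ≠ 0 → E b y = y → y ≠ 0 → q (x + y) = q (c a + c b) := by
    intro x y hx hx0 hy hy0
    rw [hqadd _ _ (hperp a b hab x y hx hy), hqconst a x hx hx0, hqconst b y hy hy0,
      hqadd _ _ (hCb _ (hcC a) _ (hcC b))]
  have hbig : 4 ≤ Nat.card {w // q w = q (c a + c b)} := by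
    let g : Bool × Bool → {w // q w = q (c a + c b)} := fun p =>
      ⟨(if p.1 then c a else d a) + (if p.2 then c b else d b), by
        cases p.1 <;> cases p.2 <;> simp only [if_true, if_false, Bool.false_eq_true]
        · exact hqab _ _ (hEd a) (hne a).1 (hEd b) (hne b).1
        · exact hqab _ _ (hEd a) (hne a).1 (hEc' b) (hne b).2.1
        · exact hqab _ _ (hEc' a) (hne a).2.1 (hEd b) (hne b).1⟩
    have hg : Function.Injective g := by
      intro p p' h
      have h0 := congrArg Subtype.val h
      have ha := congrArg (E a) h0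
      have hb := congrArg (E b) h0
      simp only [g, map_add, apply_ite (E a), apply_ite (E b), hEc', hEd,
        hEij a b hab _ (hEc' b), hEij a b hab _ (hEd b), hEij b a hab.symm _ (hEc' a),
        hEij b a hab.symm _ (hEd a), ite_self, add_zero, zero_add] at ha hb
      obtain ⟨p1, p2⟩ := p
      obtain ⟨p1', p2'⟩ := p'
      have na := (hne a).2.2
      have nb := (hne b).2.2
      simp only at ha hb
      have e1 : p1 = p1' := by
        cases p1 <;> cases p1'
        · rfl
        · exact absurd (by simpa using ha) na
        · exact absurd (by simpa using ha) na.symm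
        · rfl
      have e2 : p2 = p2' := by
        cases p2 <;> cases p2'
        · rfl
        · exact absurd (by simpa using hb) nb
        · exact absurd (by simpa using hb) nb.symm
        · rfl
      rw [e1, e2]
    have := Nat.card_le_card_of_injective g hg
    simpa [Nat.card_eq_fintype_card] using this
  have hcne : q (c a + c b) ≠ 0 := fun h => by
    have h1 := congrArg (E a) (hq0 _ h)
    rw [map_add, map_zero, hEc', hEij a b hab _ (hEc' b), add_zero] at h1
    exact (hne a).2.1 h1
  have := hfib (q (c a)) (q (c a + c b)) (fun h => (hne a).2.1 (hq0 _ h)) hcne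
  omega

end CfsgLib.OneClassInvolutions
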