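import Cfsg.Agent.OneClassInvolutions.Core
import Cfsg.Agent.OneClassInvolutions.WPart
import Cfsg.Agent.Constrained.DihedralLemma
import Cfsg.Agent.Constrained.Fitting
import Cfsg.Agent.GaschuetzYen.Main

/-!
The 2-core of a solvable group with one class of involutions is a Sylow 2-subgroup.
-/

set_option autoImplicit false

namespace CfsgLib.OneClassInvolutions

open scoped commutatorElement

variable {G : Type*} [Group G] [Finite G] {Q V : Subgroup G}

theorem eq_one_of_odd_of_two {H : Type*} [Group H] {a : H} (ho : Odd (orderOf a)) {k : ℕ}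
    (h : a ^ 2 ^ k = 1) : a = 1 :=
  orderOf_eq_one_iff.1 (Nat.eq_one_of_dvd_coprimes ((Nat.coprime_two_right.2 ho).pow_right k)
    dvd_rfl (orderOf_dvd_of_pow_eq_one h))

/-- Thompson: the special 2-core is a Sylow subgroup. -/
theorem false_of_not_sylow_le [Group.IsSolvable G] (h : Ctx Q V) (h4 : 4 ≤ Nat.card V)
    (S₀ : Sylow 2 G) (hS₀ : ¬ (S₀ : Subgroup G) ≤ Q) : False := by
  classical
  haveI := h.Vn
  haveI := h.Qn
  haveI : Fact (Nat.Prime 2) := ⟨Nat.prime_two⟩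
  have hne := h.exists_not_mem S₀ hS₀
  set C := Subgroup.centralizer (V : Set G) with hC
  have hQC : Q ≤ C := h.twoC Q h.Qp
  set π := QuotientGroup.mk' Q with hπ
  have hπ1 : ∀ g : G, π g = 1 ↔ g ∈ Q := fun g => QuotientGroup.eq_one_iff g
  set Cb := C.map π with hCb
  haveI hCbn : Cb.Normal := Subgroup.Normal.map inferInstance π (QuotientGroup.mk'_surjective Q)
  set F := Cfsg.fittingSubgroup ↥Cb with hF
  set Fb := F.map Cb.subtype with hFb
  haveI hFbn : Fb.Normal := ConjAct.normal_of_characteristic_of_normal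
  have hFnil : Group.IsNilpotent Fb := by
    haveI : Group.IsNilpotent F := Constrained.isNilpotent_fitting
    exact Group.nilpotent_of_surjective _ (Cb.subtype.subgroupMap_surjective F)
  haveI := hFnil
  have hFodd : Odd (Nat.card Fb) := by
    rw [← Nat.not_even_iff_odd, even_iff_two_dvd]
    intro h2
    obtain ⟨P⟩ : Nonempty (Sylow 2 ↥Fb) := inferInstance
    haveI : (P : Subgroup ↥Fb).Normal := inferInstance
    haveI : (P : Subgroup ↥Fb).Characteristic := Sylow.characteristic_of_normal P inferInstance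
    haveI hPn : ((P : Subgroup ↥Fb).map Fb.subtype).Normal :=
      ConjAct.normal_of_characteristic_of_normal
    have hle := h.Qmax _ (hPn.comap π)
      ((P.2.map Fb.subtype).comap_of_ker_isPGroup π (by rw [hπ, QuotientGroup.ker_mk']; exact h.Qp))
    refine P.ne_bot_of_dvd_card h2 (eq_bot_iff.2 fun y hy => ?_)
    obtain ⟨g, hg⟩ := QuotientGroup.mk'_surjective Q (y : G ⧸ Q)
    have hgQ : g ∈ Q := hle (by
      rw [Subgroup.mem_comap, hπ, hg]; exact Subgroup.mem_map_of_mem Fb.subtype hy)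
    rw [Subgroup.mem_bot]
    refine Subtype.ext ?_
    rw [← hg, Subgroup.coe_one]
    exact (hπ1 g).2 hgQ
  have hFbC : Fb ≤ Cb := Subgroup.map_subtype_le _
  set L := Fb.comap π with hL
  haveI hLn : L.Normal := hFbn.comap π
  have hQL : Q ≤ L := fun g hg => by rw [hL, Subgroup.mem_comap, (hπ1 g).2 hg]; exact one_mem _
  have hLC : L ≤ C := by
    rw [hL]
    refine (Subgroup.comap_mono hFbC).trans ?_
    rw [hCb, Subgroup.comap_map_eq, hπ, QuotientGroup.ker_mk']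
    exact sup_le le_rfl hQC
  have hfaith : ∀ (S : Sylow 2 G) (s : G), s ∈ (S : Subgroup G) →
      (∀ y ∈ Fb, Commute y (π s)) → s ∈ Q := by
    intro S s hs hc
    have hsC : π s ∈ Cb := Subgroup.mem_map_of_mem π (h.twoC _ S.2 hs)
    have hmem : (⟨π s, hsC⟩ : ↥Cb) ∈ F := Constrained.centralizer_fitting_le
      (Subgroup.mem_centralizer_iff.2 fun y hy =>
        Subtype.ext (hc _ (Subgroup.mem_map_of_mem Cb.subtype hy)))
    have hsF : π s ∈ Fb := Subgroup.mem_map_of_mem Cb.subtype hmem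
    obtain ⟨k, hk⟩ := S.2 ⟨s, hs⟩
    refine (hπ1 s).1 (eq_one_of_odd_of_two (hFodd.of_dvd_nat (Fb.orderOf_dvd_natCard hsF)) (k := k) ?_)
    rw [← map_pow, show s ^ 2 ^ k = 1 from congrArg Subtype.val hk, map_one]
  obtain ⟨s₀, hs₀, l₀, hl₀, hsl⟩ : ∃ s ∈ (S₀ : Subgroup G), ∃ l ∈ L, ⁅s, l⁆ ∉ Q := by
    by_contra hall
    push Not at hall
    refine hS₀ fun s hs => hfaith S₀ s hs fun y hy => ?_
    obtain ⟨l, rfl⟩ := QuotientGroup.mk'_surjective Q y
    have h1 := (hπ1 _).2 (hall s hs l hy)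
    rw [map_commutatorElement, commutatorElement_eq_one_iff_commute] at h1
    exact h1.symm
  -- only `V` is fixed modulo `V` by `L`
  let Z : Subgroup G :=
    { carrier := {x | x ∈ Q ∧ ∀ l ∈ L, ⁅l, x⁆ ∈ V}
      one_mem' := ⟨one_mem _, fun l _ => by rw [commutatorElement_one_right]; exact one_mem _⟩
      mul_mem' := fun {a b} ha hb => ⟨mul_mem ha.1 hb.1, fun l hl => by
        have e : ⁅l, a * b⁆ = ⁅l, a⁆ * (a * ⁅l, b⁆ * a⁻¹) := by
          simp only [commutatorElement_def]; group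
        rw [e]
        exact mul_mem (ha.2 l hl) (h.conjV (hb.2 l hl) a)⟩
      inv_mem' := fun {a} ha => ⟨inv_mem ha.1, fun l hl => by
        have e : ⁅l, a⁻¹⁆ = a⁻¹ * ⁅l, a⁆⁻¹ * a⁻¹⁻¹ := by simp only [commutatorElement_def]; group
        rw [e]
        exact h.conjV (inv_mem (ha.2 l hl)) _⟩ }
  haveI hZn : Z.Normal := ⟨fun x hx g => ⟨h.conjQ hx.1 g, fun l hl => by
    have e : ⁅l, g * x * g⁻¹⁆ = g * ⁅g⁻¹ * l * g, x⁆ * g⁻¹ := by
      simp only [commutatorElement_def]; group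
    rw [e]
    exact h.conjV (hx.2 _ (by simpa using hLn.conj_mem l hl g⁻¹)) g⟩⟩
  have hVZ : V ≤ Z := fun v hv => ⟨h.VQ hv, fun l _ => by
    rw [commutatorElement_def]; exact mul_mem (h.conjV hv l) (inv_mem hv)⟩
  have hZV : ∀ x ∈ Z, x ∈ V := by
    by_contra hcon
    push Not at hcon
    obtain ⟨z, hz, hzV⟩ := hcon
    obtain ⟨z', hz'Z, hz'P, hz'V⟩ :
        ∃ z', z' ∈ Z ∧ z' ∈ h.P0 (S₀ : Subgroup G) ∧ z' ∉ V := by
      by_cases hzP : z ∈ h.P0 (S₀ : Subgroup G)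
      · exact ⟨z, hz, hzP, hzV⟩
      · obtain ⟨t, ht, htz⟩ : ∃ t ∈ (S₀ : Subgroup G), ⁅t, z⁆ ∉ V := by
          by_contra hall
          push Not at hall
          exact hzP ⟨hz.1, hall⟩
        refine ⟨⁅t, z⁆, ?_, h.comm_mem_P0 S₀ hne ht hz.1, htz⟩
        rw [commutatorElement_def]
        exact mul_mem (hZn.conj_mem z hz t) (inv_mem hz)
    have hP0Z : ∀ c ∈ h.P0 (S₀ : Subgroup G), c ∈ Z := by
      intro c hc
      by_cases h1 : c * c = 1
      · exact hVZ ((h.memV c).2 h1)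
      obtain ⟨n, hn, hn2⟩ := h.trans_normalizer S₀ (h.sq _ hz'P.1) (h.sq _ hc.1)
        (fun e => hz'V ((h.memV _).2 e)) h1
      have hv : (n * z' * n⁻¹)⁻¹ * c ∈ V :=
        h.P0_inj S₀ hS₀ (h.conj_P0 S₀ hn hz'P) hc (by rw [← hn2]; group)
      have := mul_mem (hZn.conj_mem z' hz'Z n) (hVZ hv)
      rwa [mul_inv_cancel_left] at this
    set g := ⁅s₀, l₀⁆ with hgdef
    have hgL : g ∈ L := by
      rw [hgdef, commutatorElement_def]
      exact mul_mem (hLn.conj_mem l₀ hl₀ s₀) (inv_mem hl₀)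
    have hgZ : ∀ x ∈ Q, Commute (g : G ⧸ Z) (x : G ⧸ Z) := by
      have hsc : ∀ x ∈ Q, Commute (s₀ : G ⧸ Z) (x : G ⧸ Z) := by
        intro x hx
        rw [← commutatorElement_eq_one_iff_commute]
        have := (QuotientGroup.eq_one_iff ⁅s₀, x⁆).2 (hP0Z _ (h.comm_mem_P0 S₀ hne hs₀ hx))
        rw [← QuotientGroup.mk'_apply, map_commutatorElement] at this
        exact this
      intro x hx
      have h1 := hsc x hx
      have h2 := hsc (l₀⁻¹ * x * l₀) (by simpa using h.conjQ hx l₀⁻¹)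
      simp only [QuotientGroup.mk_mul, QuotientGroup.mk_inv] at h2
      have e : (g : G ⧸ Z) =
          (s₀ : G ⧸ Z) * (l₀ : G ⧸ Z) * (s₀ : G ⧸ Z)⁻¹ * (l₀ : G ⧸ Z)⁻¹ := by
        rw [hgdef, commutatorElement_def]; simp
      refine mul_inv_eq_iff_eq_mul.mp ?_
      rw [e]
      set a := (s₀ : G ⧸ Z)
      set b := (l₀ : G ⧸ Z)
      set y := (x : G ⧸ Z)
      calc a * b * a⁻¹ * b⁻¹ * y * (a * b * a⁻¹ * b⁻¹)⁻¹
          = a * b * (a⁻¹ * ((b⁻¹ * y * b) * a)) * b⁻¹ * a⁻¹ := by group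
        _ = a * b * (b⁻¹ * y * b) * b⁻¹ * a⁻¹ := by rw [← h2.eq, inv_mul_cancel_left]
        _ = a * y * a⁻¹ := by group
        _ = y := by rw [h1.eq, mul_inv_cancel_right]
    obtain ⟨k, m, hm, hkm⟩ :=
      Nat.exists_eq_pow_mul_and_not_dvd (orderOf_pos g).ne' 2 (by norm_num)
    set g' := g ^ 2 ^ k with hg'
    have hg'C : g' ∈ C := pow_mem (hLC hgL) _
    have hg'o : Odd (orderOf g') := by
      rw [hg', orderOf_pow' _ (by positivity), hkm, Nat.gcd_eq_right (dvd_mul_right _ _),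
        Nat.mul_div_cancel_left _ (by positivity)]
      exact Nat.not_even_iff_odd.1 fun he => hm (even_iff_two_dvd.1 he)
    have hcop : ∀ y ∈ Q, (orderOf g').Coprime (orderOf y) := by
      intro y hy
      obtain ⟨j, hj⟩ := IsPGroup.iff_orderOf.1 h.Qp ⟨y, hy⟩
      rw [Subgroup.orderOf_mk] at hj
      rw [hj]
      exact (Nat.coprime_two_right.2 hg'o).pow_right j
    have hfixZ : ∀ z ∈ Z, g' * z = z * g' := by
      intro z hz
      have hw : ⁅g', z⁆ ∈ V := hz.2 g' (pow_mem hgL _)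
      rw [commutatorElement_def] at hw
      exact Coprime.commute_of_commute_commutator
        (Subgroup.mem_centralizer_iff.1 hg'C _ hw).symm (hcop _ (h.VQ hw))
    have hg'Q : g' ∈ Q := h.CQ (Subgroup.mem_centralizer_iff.2 fun x hx => by
      have hw : g' * x * g'⁻¹ * x⁻¹ ∈ Z := by
        rw [← QuotientGroup.eq_one_iff, ← commutatorElement_def, ← QuotientGroup.mk'_apply,
          map_commutatorElement, commutatorElement_eq_one_iff_commute]
        show Commute ((g ^ 2 ^ k : G) : G ⧸ Z) (x : G ⧸ Z)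
        rw [QuotientGroup.mk_pow]
        exact (hgZ x hx).pow_left _
      exact (Coprime.commute_of_commute_commutator (hfixZ _ hw) (hcop _ hw.1)).symm)
    have hg1 : g ^ 2 ^ k = 1 := orderOf_eq_one_iff.1 ((Nat.coprime_self _).1 (hcop g' hg'Q))
    refine hsl ((hπ1 g).1 (eq_one_of_odd_of_two (hFodd.of_dvd_nat (Fb.orderOf_dvd_natCard hgL))
      (k := k) ?_))
    rw [← map_pow, hg1, map_one]
  -- a complement of `Q` in `L`
  have hcopL : (Nat.card (Q.subgroupOf L)).Coprime (Q.subgroupOf L).index := by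
    obtain ⟨n, hn⟩ := IsPGroup.iff_card.1 h.Qp
    rw [Nat.card_congr (Subgroup.subgroupOfEquivOfLe hQL).toEquiv, hn]
    refine Nat.Coprime.pow_left n (Nat.coprime_two_left.2 ?_)
    show Odd (Q.relIndex L)
    conv in Q.relIndex L => arg 1; rw [← QuotientGroup.ker_mk' Q, ← MonoidHom.comap_bot]
    rw [hL, Subgroup.relIndex_comap, Subgroup.map_comap_eq_self_of_surjective
      (QuotientGroup.mk'_surjective Q), Subgroup.relIndex_bot_left]
    exact hFodd
  obtain ⟨K₀, hK₀⟩ := Subgroup.exists_right_complement'_of_coprime hcopL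
  set K := K₀.map L.subtype with hKdef
  have hKQ : K ⊔ Q = L := by
    have h1 := congrArg (Subgroup.map L.subtype) hK₀.sup_eq_top
    rw [Subgroup.map_sup, Subgroup.map_subgroupOf_eq_of_le hQL, ← MonoidHom.range_eq_map,
      L.range_subtype] at h1
    rw [sup_comm]; exact h1
  have hKcop : (Nat.card K).Coprime (Nat.card Q) := by
    rw [hKdef, Subgroup.card_map_of_injective L.subtype_injective, ← hK₀.symm.index_eq_card,
      ← Nat.card_congr (Subgroup.subgroupOfEquivOfLe hQL).toEquiv]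
    exact hcopL.symm
  have hfr := GaschuetzYen.exists_mul_mem_normalizer_complement Q L K
    (by haveI := h.Qp.isNilpotent; infer_instance) hKQ hKcop
  set N := Subgroup.normalizer (K : Set G) with hN
  have hKL : K ≤ L := Subgroup.map_subtype_le _
  have hQN : ∀ x ∈ Q, x ∈ N → x ∈ V := by
    intro x hx hxN
    refine hZV x ⟨hx, fun l hl => ?_⟩
    rw [← hKQ] at hl
    obtain ⟨r, hr, q, hq, rfl⟩ := Subgroup.mem_sup_of_normal_right.mp hl
    have hrx : ⁅r, x⁆ = 1 := by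
      have h1 : ⁅r, x⁆ ∈ K := by
        rw [commutatorElement_def, show r * x * r⁻¹ * x⁻¹ = r * (x * r⁻¹ * x⁻¹) by group]
        exact mul_mem hr ((Subgroup.mem_normalizer_iff.1 hxN _).1 (inv_mem hr))
      exact Subgroup.mem_bot.1
        (Subgroup.inf_eq_bot_of_coprime hKcop ▸ Subgroup.mem_inf.2 ⟨h1, h.commQ r hx⟩)
    have e : ⁅r * q, x⁆ = r * ⁅q, x⁆ * r⁻¹ * ⁅r, x⁆ := by
      simp only [commutatorElement_def]; group
    rw [e, hrx, mul_one]
    exact h.conjV (h.comm_mem hq hx) r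
  set M := N ⊓ C with hM
  obtain ⟨P⟩ : Nonempty (Sylow 2 ↥M) := inferInstance
  set T := (P : Subgroup ↥M).map M.subtype with hT
  obtain ⟨S, hTS⟩ := (P.2.map M.subtype).exists_le_sylow
  have hS : ¬ (S : Subgroup G) ≤ Q := by
    intro hle
    obtain ⟨g, hg⟩ := MulAction.exists_smul_eq G S S₀
    refine hS₀ fun s hs => ?_
    rw [← hg, Sylow.coe_subgroup_smul, Subgroup.mem_pointwise_smul_iff_inv_smul_mem] at hs
    have h1 : g⁻¹ * s * g ∈ Q := hle (by simpa using hs)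
    have := h.conjQ h1 g
    rwa [show g * (g⁻¹ * s * g) * g⁻¹ = s by group] at this
  have hQS : Q ≤ (S : Subgroup G) := by
    have := S.3 (S.2.to_sup_of_normal_right h.Qp) le_sup_left
    rw [← this]; exact le_sup_right
  have hdec : ∀ s ∈ (S : Subgroup G), ∃ q ∈ Q, q * s ∈ T := by
    intro s hs
    obtain ⟨q, hq, hqs⟩ := hfr s
    refine ⟨q, hq, ?_⟩
    have hmM : q * s ∈ M := ⟨hqs, mul_mem (hQC hq) (h.twoC _ S.2 hs)⟩
    have hsub : ((S : Subgroup G).subgroupOf M) = (P : Subgroup ↥M) := by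
      refine P.3 ?_ fun y hy => ?_
      · exact S.2.comap_of_injective M.subtype M.subtype_injective
      · exact hTS (Subgroup.mem_map_of_mem M.subtype hy)
    exact ⟨⟨q * s, hmM⟩, hsub ▸ (Subgroup.mem_subgroupOf.2 (mul_mem (hQS hq) hs)), rfl⟩
  have hTM : T ≤ M := Subgroup.map_subtype_le _
  have hTsq : ∀ t ∈ T, t * t ∈ V := fun t ht =>
    hQN _ (h.sq_mem_Q S hne (hTS ht)) (mul_mem (hTM ht).1 (hTM ht).1)
  have hTQ : ∀ t ∈ T, t ∈ Q → t ∈ V := fun t ht htQ => hQN t htQ (hTM ht).1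
  obtain ⟨t₀, ht₀, ht₀Q⟩ : ∃ t ∈ T, t ∉ Q := by
    by_contra hall
    push Not at hall
    refine hS fun s hs => ?_
    obtain ⟨q, hq, hqs⟩ := hdec s hs
    exact (Subgroup.mul_mem_cancel_left _ hq).1 (hall _ hqs)
  -- every involution is a square in `T`
  have hsqT : ∀ v ∈ V, ∃ t ∈ T, t * t = v := by
    intro v hv
    by_cases hv1 : v = 1
    · exact ⟨1, one_mem _, by rw [hv1, one_mul]⟩
    obtain ⟨g, hg⟩ := h.trans _ (hTsq t₀ ht₀) v hv
      (fun e => ht₀Q (h.VQ ((h.memV _).2 e))) hv1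
    obtain ⟨q, hq, hqg⟩ := hfr g
    set t' := q * g * t₀ * (q * g)⁻¹ with ht'
    have ht'M : t' ∈ M := Subgroup.mem_inf.2 ⟨mul_mem (mul_mem hqg (hTM ht₀).1) (inv_mem hqg),
      (inferInstance : C.Normal).conj_mem _ (hTM ht₀).2 _⟩
    have hsq' : t' * t' = v := by
      rw [ht', show q * g * t₀ * (q * g)⁻¹ * (q * g * t₀ * (q * g)⁻¹) =
        q * (g * (t₀ * t₀) * g⁻¹) * q⁻¹ by group, hg, (h.Vcomm v hv q hq).eq, mul_inv_cancel_right]
    have ht'p : IsPGroup 2 (Subgroup.zpowers (⟨t', ht'M⟩ : ↥M)) := by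
      obtain ⟨k, -, hk⟩ := (Nat.dvd_prime_pow Nat.prime_two).1
        (show orderOf t' ∣ 2 ^ 2 from orderOf_dvd_of_pow_eq_one (by
          rw [show (2 : ℕ) ^ 2 = 2 * 2 by norm_num, pow_mul, pow_two, pow_two, hsq', h.sq_one hv]))
      exact IsPGroup.of_card (n := k) (by rw [Nat.card_zpowers, Subgroup.orderOf_mk, hk])
    obtain ⟨P', hP'⟩ := ht'p.exists_le_sylow
    obtain ⟨m, hm⟩ := MulAction.exists_smul_eq ↥M P' P
    refine ⟨(m : G) * t' * (m : G)⁻¹, ⟨m * ⟨t', ht'M⟩ * m⁻¹, ?_, rfl⟩, ?_⟩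
    · rw [← hm]
      exact ⟨_, hP' (Subgroup.mem_zpowers _), rfl⟩
    · rw [show (m : G) * t' * (m : G)⁻¹ * ((m : G) * t' * (m : G)⁻¹) =
        (m : G) * (t' * t') * (m : G)⁻¹ by group, hsq',
        ← Subgroup.mem_centralizer_iff.1 (inf_le_right (a := N) (b := C) m.2) v hv,
        mul_inv_cancel_right]
  choose τ hτT hτsq using hsqT
  set A := (S : Subgroup G).map π with hA
  have hA2 : ∀ a ∈ A, a * a = 1 := by
    rintro _ ⟨s, hs, rfl⟩
    rw [← map_mul, hπ1]
    exact h.sq_mem_Q S hne hs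
  have hAel : Cfsg.IsElementaryAbelian 2 A := by
    refine ⟨⟨⟨fun a b => Subtype.ext ?_⟩⟩, fun a ha => by rw [pow_two]; exact hA2 a ha⟩
    have h1 := hA2 _ (mul_mem a.2 b.2)
    show (a : G ⧸ Q) * b = b * a
    calc (a : G ⧸ Q) * b = ((a : G ⧸ Q) * b)⁻¹ := eq_inv_of_mul_eq_one_left h1
      _ = b * a := by
        rw [mul_inv_rev, inv_eq_of_mul_eq_one_right (hA2 _ a.2),
          inv_eq_of_mul_eq_one_right (hA2 _ b.2)]
  have hVA : Nat.card V ≤ Nat.card A := by
    refine Nat.card_le_card_of_injective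
      (fun v : V => (⟨π (τ v v.2), Subgroup.mem_map_of_mem π (hTS (hτT v v.2))⟩ : A)) ?_
    intro v w hvw
    have h1 : π (τ v v.2) = π (τ w w.2) := congrArg Subtype.val hvw
    set a := τ v v.2
    set b := τ w w.2
    have h2 : a⁻¹ * b ∈ T := mul_mem (inv_mem (hτT v v.2)) (hτT w w.2)
    have h3 : a⁻¹ * b ∈ V :=
      hTQ _ h2 ((hπ1 _).1 (by rw [map_mul, map_inv, h1, inv_mul_cancel]))
    have hc : Commute a (a⁻¹ * b) := (Subgroup.mem_centralizer_iff.1
      ((hTM (hτT v v.2)).2) _ h3).symm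
    refine Subtype.ext ?_
    calc (v : G) = a * a := (hτsq v v.2).symm
      _ = a * (a⁻¹ * b) * (a * (a⁻¹ * b)) := by
        rw [hc.symm.mul_mul_mul_comm, h.sq_one h3, mul_one]
      _ = w := by rw [mul_inv_cancel_left]; exact hτsq w w.2
  have hAN : A ≤ Subgroup.normalizer (Fb : Set (G ⧸ Q)) := by
    rw [Subgroup.normalizer_eq_top (H := Fb)]; exact le_top
  have hAf : A ⊓ Subgroup.centralizer (Fb : Set (G ⧸ Q)) = ⊥ := by
    rw [eq_bot_iff]
    rintro _ ⟨⟨s, hs, rfl⟩, hc⟩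
    exact Subgroup.mem_bot.2 ((hπ1 s).2 (hfaith S s hs fun y hy =>
      Subgroup.mem_centralizer_iff.1 hc y hy))
  obtain ⟨d, hd⟩ := IsPGroup.iff_card.1 (S.2.map π : IsPGroup 2 A)
  obtain ⟨a, x, hax, -, hcomm⟩ :=
    DihedralLemma.exists_pairs d Fb A hFnil hFodd hAel hAN hAf hd
  obtain ⟨n, hn⟩ := IsPGroup.iff_card.1 (h.Qp.to_le h.VQ)
  have hn2 : 2 ≤ n := by
    by_contra hlt
    rw [hn] at h4
    have : 2 ^ n ≤ 2 ^ 1 := Nat.pow_le_pow_right (by norm_num) (by omega)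
    omega
  have hnd : n ≤ d := by
    rw [hn, hd] at hVA
    exact (Nat.pow_le_pow_iff_right (by norm_num)).1 hVA
  -- the module
  let Wg : Subgroup (G ⧸ V) := Q.map (QuotientGroup.mk' V)
  haveI hWn : Wg.Normal := h.Qn.map _ (QuotientGroup.mk'_surjective V)
  letI hWc : CommGroup Wg :=
    { (inferInstance : Group Wg) with
      mul_comm := fun u w => by
        obtain ⟨u0, hu0, hu⟩ := u.2
        obtain ⟨w0, hw0, hw⟩ := w.2
        refine Subtype.ext ?_
        show (u : G ⧸ V) * w = w * u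
        rw [← hu, ← hw, QuotientGroup.mk'_apply, QuotientGroup.mk'_apply, ← QuotientGroup.mk_mul,
          ← QuotientGroup.mk_mul, QuotientGroup.eq,
          show (u0 * w0)⁻¹ * (w0 * u0) = ⁅w0⁻¹, u0⁻¹⁆ by rw [commutatorElement_def]; group]
        exact h.comm_mem (inv_mem hw0) (inv_mem hu0) }
  letI hVc : CommGroup V :=
    { (inferInstance : Group V) with
      mul_comm := fun u w => Subtype.ext (h.Vcomm w w.2 u (h.VQ u.2)).eq }
  have hrep : ∀ w : Additive Wg, ∃ (y : G) (hy : y ∈ Q),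
      w = Additive.ofMul (⟨(y : G ⧸ V), ⟨y, hy, rfl⟩⟩ : Wg) := by
    intro w
    obtain ⟨y, hy, hyw⟩ := (Additive.toMul w).2
    exact ⟨y, hy, congrArg Additive.ofMul (Subtype.ext hyw.symm)⟩
  let q : Additive Wg → Additive V := fun w => Additive.ofMul
    ⟨sqW ((Additive.toMul w : Wg) : G ⧸ V), by
      obtain ⟨y, hy, hyw⟩ := (Additive.toMul w).2
      rw [← hyw, QuotientGroup.mk'_apply, h.sqW_mk hy]
      exact h.sq y hy⟩
  have hqval : ∀ (y : G) (hy : y ∈ Q),
      ((Additive.toMul (q (Additive.ofMul (⟨(y : G ⧸ V), ⟨y, hy, rfl⟩⟩ : Wg))) : V) : G) = y * y :=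
    fun y hy => h.sqW_mk hy
  have hqext : ∀ {u w : Additive V}, ((Additive.toMul u : V) : G) = ((Additive.toMul w : V) : G) →
      u = w := fun {u w} e => Additive.toMul.injective (Subtype.ext e)
  have hWext : ∀ {u w : Additive Wg},
      ((Additive.toMul u : Wg) : G ⧸ V) = ((Additive.toMul w : Wg) : G ⧸ V) → u = w :=
    fun {u w} e => Additive.toMul.injective (Subtype.ext e)
  have hpol : ∀ (y z : G) (hy : y ∈ Q) (hz : z ∈ Q),
      polar q (Additive.ofMul (⟨(y : G ⧸ V), ⟨y, hy, rfl⟩⟩ : Wg))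
        (Additive.ofMul (⟨(z : G ⧸ V), ⟨z, hz, rfl⟩⟩ : Wg)) =
      Additive.ofMul (⟨⁅y, z⁆, h.comm_mem hy hz⟩ : V) := by
    intro y z hy hz
    refine hqext ?_
    show sqW (((y : G ⧸ V) * (z : G ⧸ V))) * sqW (y : G ⧸ V) * sqW (z : G ⧸ V) = ⁅y, z⁆
    rw [← QuotientGroup.mk_mul, h.sqW_mk (mul_mem hy hz), h.sqW_mk hy, h.sqW_mk hz,
      h.sq_mul hy hz]
    have hyV := h.sq y hy
    have hzV := h.sq z hz
    have hc := h.comm_mem hy hz
    rw [show y * y * (z * z) * ⁅y, z⁆ * (y * y) * (z * z) =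
        (y * y) * ((z * z) * ⁅y, z⁆) * (y * y) * (z * z) by group,
      (h.Vcomm _ hyV _ (h.VQ (mul_mem hzV hc))).symm.eq,
      show (z * z) * ⁅y, z⁆ * (y * y) * (y * y) * (z * z) =
        (z * z) * ⁅y, z⁆ * ((y * y) * (y * y)) * (z * z) by group, h.sq_one hyV, mul_one,
      show (z * z) * ⁅y, z⁆ * (z * z) = (z * z) * (⁅y, z⁆ * (z * z)) by group,
      (h.Vcomm _ hzV _ (h.VQ hc)).eq, ← mul_assoc, h.sq_one hzV, one_mul]
  let ρ₀ : G →* AddMonoid.End (Additive Wg) :=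
    { toFun := fun g => MonoidHom.toAdditive
        (MulAut.conjNormal (H := Wg) (g : G ⧸ V)).toMonoidHom
      map_one' := by
        refine AddMonoidHom.ext fun w => hWext ?_
        show ((1 : G) : G ⧸ V) * ((Additive.toMul w : Wg) : G ⧸ V) * ((1 : G) : G ⧸ V)⁻¹ =
          ((Additive.toMul w : Wg) : G ⧸ V)
        simp
      map_mul' := fun g g' => by
        refine AddMonoidHom.ext fun w => hWext ?_
        show ((g * g' : G) : G ⧸ V) * ((Additive.toMul w : Wg) : G ⧸ V) * ((g * g' : G) : G ⧸ V)⁻¹ =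
          (g : G ⧸ V) * ((g' : G ⧸ V) * ((Additive.toMul w : Wg) : G ⧸ V) * (g' : G ⧸ V)⁻¹) *
            (g : G ⧸ V)⁻¹
        rw [QuotientGroup.mk_mul]; group }
  have hρval : ∀ (g y : G) (hy : y ∈ Q),
      ρ₀ g (Additive.ofMul (⟨(y : G ⧸ V), ⟨y, hy, rfl⟩⟩ : Wg)) =
        Additive.ofMul (⟨((g * y * g⁻¹ : G) : G ⧸ V), ⟨_, h.conjQ hy g, rfl⟩⟩ : Wg) :=
    fun g y hy => hWext rfl
  let ρ : G ⧸ Q →* AddMonoid.End (Additive Wg) := QuotientGroup.lift Q ρ₀ fun g hg => by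
    rw [MonoidHom.mem_ker]
    refine AddMonoidHom.ext fun w => ?_
    obtain ⟨y, hy, rfl⟩ := hrep w
    refine (hρval g y hy).trans (hWext ?_)
    show ((g * y * g⁻¹ : G) : G ⧸ V) = (y : G ⧸ V)
    rw [QuotientGroup.eq, show (g * y * g⁻¹)⁻¹ * y = ⁅g, y⁻¹⁆ by
      rw [commutatorElement_def]; group]
    exact h.comm_mem hg (inv_mem hy)
  have hρπ : ∀ g : G, ρ (π g) = ρ₀ g := fun g => rfl
  let C₀ : AddSubgroup (Additive Wg) :=
    Subgroup.toAddSubgroup (((h.P0 (S : Subgroup G)).map (QuotientGroup.mk' V)).subgroupOf Wg)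
  have hC₀mem : ∀ w : Additive Wg, w ∈ C₀ ↔ ∃ (c : G) (hc : c ∈ h.P0 (S : Subgroup G)),
      w = Additive.ofMul (⟨(c : G ⧸ V), ⟨c, hc.1, rfl⟩⟩ : Wg) := by
    intro w
    constructor
    · rintro ⟨c, hc, hcw⟩
      exact ⟨c, hc, hWext hcw.symm⟩
    · rintro ⟨c, hc, rfl⟩
      exact ⟨c, hc, rfl⟩
  have hVadd : ∀ v : Additive V, v + v = 0 := fun v =>
    hqext (h.sq_one (Additive.toMul v : V).2)
  have hWadd : ∀ w : Additive Wg, w + w = 0 := fun w => by
    obtain ⟨y, hy, rfl⟩ := hrep w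
    refine hWext ?_
    show (y : G ⧸ V) * (y : G ⧸ V) = 1
    rw [← QuotientGroup.mk_mul, QuotientGroup.eq_one_iff]
    exact h.sq y hy
  have hC₀card : Nat.card C₀ = 2 ^ n := by
    have hbij : Function.Bijective (fun c : C₀ => q (c : Additive Wg)) := by
      constructor
      · intro u w e
        obtain ⟨c, hc, hu⟩ := (hC₀mem _).1 u.2
        obtain ⟨c', hc', hw⟩ := (hC₀mem _).1 w.2
        have e' := congrArg (fun z : Additive V => ((Additive.toMul z : V) : G)) e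
        simp only [hu, hw] at e'
        rw [hqval c hc.1, hqval c' hc'.1] at e'
        refine Subtype.ext ?_
        rw [hu, hw]
        exact hWext (QuotientGroup.eq.2 (h.P0_inj S hS hc hc' e'))
      · intro v
        by_cases hv1 : ((Additive.toMul v : V) : G) = 1
        · refine ⟨0, hqext ?_⟩
          rw [hv1]
          show sqW (((1 : G)) : G ⧸ V) = 1
          rw [h.sqW_mk Q.one_mem, one_mul]
        · obtain ⟨c, hc, hc2⟩ := h.exists_sq_P0 S hne (Additive.toMul v : V).2 hv1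
          exact ⟨⟨_, (hC₀mem _).2 ⟨c, hc, rfl⟩⟩, hqext ((hqval c hc.1).trans hc2)⟩
    rw [Nat.card_congr (Equiv.ofBijective _ hbij)]
    exact (Nat.card_congr Additive.toMul).trans hn
  have hconjq : ∀ (g : G), g ∈ C → ∀ w, q (ρ₀ g w) = q w := by
    intro g hg w
    obtain ⟨y, hy, rfl⟩ := hrep w
    refine hqext ?_
    rw [hρval g y hy, hqval y hy, hqval _ (h.conjQ hy g),
      show g * y * g⁻¹ * (g * y * g⁻¹) = g * (y * y) * g⁻¹ by group,
      ← Subgroup.mem_centralizer_iff.1 hg _ (h.sq y hy), mul_inv_cancel_right]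
  have hCbC : ∀ z ∈ Cb, ∀ w, q (ρ z w) = q w := by
    rintro _ ⟨g, hg, rfl⟩ w
    rw [hρπ]; exact hconjq g hg w
  let i' : Fin n → Fin d := fun i => Fin.castLE hnd i
  have hi' : ∀ i j, i ≠ j → i' i ≠ i' j := fun i j hij e =>
    hij (Fin.castLE_injective hnd e)
  refine false_of_pairs hWadd hVadd q ?_ ?_ ?_ ?_ n hn2 C₀ hC₀card
    ((Nat.card_congr Additive.toMul).trans hn) ?_
    (fun i => ρ (a (i' i))) (fun i => ρ (x (i' i))) ?_ ?_ ?_ ?_ ?_
    (fun i => orderOf (x (i' i))) ?_ ?_ ?_ ?_ ?_ ?_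
  · refine hqext ?_
    show sqW (((1 : G)) : G ⧸ V) = 1
    rw [h.sqW_mk Q.one_mem, one_mul]
  · intro w hw
    obtain ⟨y, hy, rfl⟩ := hrep w
    have e := congrArg (fun z : Additive V => ((Additive.toMul z : V) : G)) hw
    rw [hqval y hy] at e
    exact hWext ((QuotientGroup.eq_one_iff y).2 ((h.memV y).2 e))
  · intro u w z
    obtain ⟨u0, hu, rfl⟩ := hrep u
    obtain ⟨w0, hw, rfl⟩ := hrep w
    obtain ⟨z0, hz, rfl⟩ := hrep z
    rw [hpol u0 z0 hu hz, hpol w0 z0 hw hz]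
    refine (hpol (u0 * w0) z0 (mul_mem hu hw) hz).trans (hqext ?_)
    exact h.comm_mul_left hu hw hz
  · intro v v' hv hv'
    have key : ∀ v : Additive V, Nat.card {w : Additive Wg // q w = v} =
        Nat.card {w : G ⧸ V // w ∈ Wg ∧ sqW w = ((Additive.toMul v : V) : G)} := fun v =>
      Nat.card_congr
        { toFun := fun w => ⟨((Additive.toMul w.1 : Wg) : G ⧸ V), (Additive.toMul w.1).2,
            congrArg (fun z : Additive V => ((Additive.toMul z : V) : G)) w.2⟩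
          invFun := fun w => ⟨Additive.ofMul ⟨w.1, w.2.1⟩, hqext w.2.2⟩
          left_inv := fun w => rfl
          right_inv := fun w => rfl }
    rw [key, key]
    exact h.card_fibre_eq (Additive.toMul v : V).2 (Additive.toMul v' : V).2
      (fun e => hv (hqext e)) (fun e => hv' (hqext e))
  · intro c hc e he
    obtain ⟨c0, hc0, rfl⟩ := (hC₀mem c).1 hc
    obtain ⟨e0, he0, rfl⟩ := (hC₀mem e).1 he
    rw [hpol c0 e0 hc0.1 he0.1]
    exact hqext (h.P0_comm S hS hc0 he0)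
  · intro i
    rw [← map_mul, hA2 _ (hax (i' i)).1, map_one]
  · intro i w
    refine hCbC _ ?_ w
    exact Subgroup.map_mono (h.twoC _ S.2) (hax (i' i)).1
  · intro i w
    exact hCbC _ (hFbC (hax (i' i)).2.2.1) w
  · intro i w
    obtain ⟨s, hs, hse⟩ := (hax (i' i)).1
    obtain ⟨y, hy, rfl⟩ := hrep w
    rw [← hse, hρπ, hρval s y hy, hC₀mem]
    have hj := h.comm_mem_P0 S hne hs hy
    refine ⟨s * y * s⁻¹ * y, ?_, hWext rfl⟩
    have := mul_mem hj (h.V_le_P0 (S : Subgroup G) (h.sq y hy))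
    rw [commutatorElement_def] at this
    convert this using 1
    group
  · intro i c hc
    obtain ⟨s, hs, hse⟩ := (hax (i' i)).1
    obtain ⟨c0, hc0, rfl⟩ := (hC₀mem c).1 hc
    rw [← hse, hρπ, hρval s c0 hc0.1]
    refine hWext ?_
    show ((s * c0 * s⁻¹ : G) : G ⧸ V) = (c0 : G ⧸ V)
    have h1 := hc0.2 s hs
    rw [← QuotientGroup.eq_one_iff, commutatorElement_def, QuotientGroup.mk_mul,
      QuotientGroup.mk_inv, mul_inv_eq_one] at h1
    exact h1
  · intro i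
    exact hFodd.of_dvd_nat (Fb.orderOf_dvd_natCard (hax (i' i)).2.2.1)
  · intro i
    rw [← map_pow, pow_orderOf_eq_one, map_one]
  · intro i hx1
    obtain ⟨g, hg⟩ := QuotientGroup.mk'_surjective Q (x (i' i))
    refine (hax (i' i)).2.2.2.1 ?_
    rw [← hg]
    refine (hπ1 g).2 (h.mem_of_kernel (hLC ?_) fun y hy => ?_)
    · rw [hL, Subgroup.mem_comap, hπ, hg]; exact (hax (i' i)).2.2.1
    · rw [← hg, hρπ] at hx1
      have h1 := DFunLike.congr_fun hx1 (Additive.ofMul (⟨(y : G ⧸ V), ⟨y, hy, rfl⟩⟩ : Wg))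
      rw [hρval g y hy] at h1
      have h2 : ((g * y * g⁻¹ : G) : G ⧸ V) = (y : G ⧸ V) :=
        congrArg (fun z : Additive Wg => ((Additive.toMul z : Wg) : G ⧸ V)) h1
      rw [← QuotientGroup.eq_one_iff, commutatorElement_def, QuotientGroup.mk_mul,
        QuotientGroup.mk_inv, mul_inv_eq_one]
      exact h2
  · intro i j hij
    exact (hcomm _ _ (hi' i j hij)).2.map ρ
  · intro i j hij
    exact (hcomm _ _ (hi' i j hij)).1.map ρ
  · intro i
    rw [← map_mul, ← map_mul, ← map_mul]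
    have h1 := (hax (i' i)).2.2.2.2
    rw [inv_eq_of_mul_eq_one_right (hA2 _ (hax (i' i)).1)] at h1
    rw [h1, inv_mul_cancel, map_one]

end CfsgLib.OneClassInvolutions
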