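import Mathlib
import Cfsg.Agent.Coprime.Stabilizer

/-!
The special 2-core in a solvable group with one class of involutions: squaring, commutators and the
fixed points of a Sylow 2-subgroup modulo the involutions.
-/

set_option autoImplicit false

namespace CfsgLib.OneClassInvolutions

open scoped commutatorElement

variable {G : Type*} [Group G]

/-- The standing hypotheses. -/
structure Ctx (Q V : Subgroup G) : Prop where
  Qn : Q.Normal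
  Vn : V.Normal
  Qp : IsPGroup 2 Q
  Qmax : ∀ N : Subgroup G, N.Normal → IsPGroup 2 N → N ≤ Q
  CQ : Subgroup.centralizer (Q : Set G) ≤ Q
  memV : ∀ x, x ∈ V ↔ x * x = 1
  VQ : V ≤ Q
  Vcomm : ∀ v ∈ V, ∀ q ∈ Q, Commute q v
  sq : ∀ y ∈ Q, y * y ∈ V
  trans : ∀ v ∈ V, ∀ v' ∈ V, v ≠ 1 → v' ≠ 1 → ∃ g : G, g * v * g⁻¹ = v'
  twoC : ∀ S : Subgroup G, IsPGroup 2 S → S ≤ Subgroup.centralizer (V : Set G)

/-- The square of a chosen representative. -/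
noncomputable def sqW {V : Subgroup G} (w : G ⧸ V) : G := w.out * w.out

namespace Ctx

variable {Q V : Subgroup G}

theorem sq_one (h : Ctx Q V) {v : G} (hv : v ∈ V) : v * v = 1 := (h.memV v).1 hv

theorem inv_eq (h : Ctx Q V) {v : G} (hv : v ∈ V) : v⁻¹ = v :=
  inv_eq_of_mul_eq_one_right (h.sq_one hv)

theorem conjV (h : Ctx Q V) {v : G} (hv : v ∈ V) (g : G) : g * v * g⁻¹ ∈ V := h.Vn.conj_mem v hv g

theorem conjQ (h : Ctx Q V) {q : G} (hq : q ∈ Q) (g : G) : g * q * g⁻¹ ∈ Q := h.Qn.conj_mem q hq g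

theorem commQ (h : Ctx Q V) (g : G) {x : G} (hx : x ∈ Q) : ⁅g, x⁆ ∈ Q := by
  rw [commutatorElement_def]; exact mul_mem (h.conjQ hx g) (inv_mem hx)

theorem comm_mem (h : Ctx Q V) {x y : G} (hx : x ∈ Q) (hy : y ∈ Q) : ⁅x, y⁆ ∈ V := by
  have e : ⁅x, y⁆ = (x * x) * ((x⁻¹ * y) * (x⁻¹ * y)) * (y⁻¹ * y⁻¹) := by
    rw [commutatorElement_def]; group
  rw [e]
  exact mul_mem (mul_mem (h.sq _ hx) (h.sq _ (mul_mem (inv_mem hx) hy))) (h.sq _ (inv_mem hy))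

theorem comm_mul_left (h : Ctx Q V) {x y z : G} (hx : x ∈ Q) (hy : y ∈ Q) (hz : z ∈ Q) :
    ⁅x * y, z⁆ = ⁅x, z⁆ * ⁅y, z⁆ := by
  have e : ⁅x * y, z⁆ = x * ⁅y, z⁆ * x⁻¹ * ⁅x, z⁆ := by
    simp only [commutatorElement_def]; group
  rw [e, (h.Vcomm _ (h.comm_mem hy hz) x hx).eq, mul_inv_cancel_right,
    (h.Vcomm _ (h.comm_mem hx hz) _ (h.VQ (h.comm_mem hy hz))).eq]

theorem comm_mul_right (h : Ctx Q V) {x y z : G} (hx : x ∈ Q) (hy : y ∈ Q) (hz : z ∈ Q) :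
    ⁅x, y * z⁆ = ⁅x, y⁆ * ⁅x, z⁆ := by
  have e : ⁅x, y * z⁆ = ⁅x, y⁆ * (y * ⁅x, z⁆ * y⁻¹) := by
    simp only [commutatorElement_def]; group
  rw [e, (h.Vcomm _ (h.comm_mem hx hz) y hy).eq, mul_inv_cancel_right]

theorem comm_inv_left (h : Ctx Q V) {x y : G} (hx : x ∈ Q) (hy : y ∈ Q) : ⁅x⁻¹, y⁆ = ⁅x, y⁆ := by
  have h1 := h.comm_mul_left (inv_mem hx) hx hy
  rw [inv_mul_cancel, commutatorElement_one_left] at h1
  rw [eq_inv_of_mul_eq_one_left h1.symm, h.inv_eq (h.comm_mem hx hy)]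

theorem sq_mul (h : Ctx Q V) {x y : G} (hx : x ∈ Q) (hy : y ∈ Q) :
    x * y * (x * y) = (x * x) * (y * y) * ⁅x, y⁆ := by
  have e : x * y * (x * y) = (x * x) * ⁅x⁻¹, y⁆ * (y * y) := by
    rw [commutatorElement_def]; group
  rw [e, h.comm_inv_left hx hy, mul_assoc,
    (h.Vcomm _ (h.comm_mem hx hy) _ (mul_mem hy hy)).symm.eq, ← mul_assoc]

theorem sq_mul_V (h : Ctx Q V) {x v : G} (hx : x ∈ Q) (hv : v ∈ V) :
    x * v * (x * v) = x * x := by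
  rw [((h.Vcomm v hv x hx).symm).mul_mul_mul_comm, h.sq_one hv, mul_one]

theorem mk_eq_iff (h : Ctx Q V) {x y : G} :
    (haveI := h.Vn; ((x : G ⧸ V) = (y : G ⧸ V))) ↔ x⁻¹ * y ∈ V := by
  haveI := h.Vn
  exact QuotientGroup.eq

theorem sqW_mk (h : Ctx Q V) {x : G} (hx : x ∈ Q) : sqW (x : G ⧸ V) = x * x := by
  obtain ⟨⟨v, hv⟩, hv'⟩ := QuotientGroup.mk_out_eq_mul V x
  unfold sqW
  rw [hv']
  exact h.sq_mul_V hx hv

theorem eq_of_sq_eq (h : Ctx Q V) {x y : G} (hx : x ∈ Q) (hy : y ∈ Q) (hc : ⁅x, y⁆ = 1)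
    (hs : x * x = y * y) : x⁻¹ * y ∈ V := by
  rw [h.memV]
  have hc' : Commute x⁻¹ y := (commutatorElement_eq_one_iff_commute.1 hc).inv_left
  rw [hc'.symm.mul_mul_mul_comm, ← hs]
  group

variable [Finite G]

/-- Elements of `C(V)` acting trivially on `Q` modulo `V` lie in `Q`. -/
theorem mem_of_kernel (h : Ctx Q V) {g : G} (hg : g ∈ Subgroup.centralizer (V : Set G))
    (hk : ∀ x ∈ Q, ⁅g, x⁆ ∈ V) : g ∈ Q := by
  haveI := h.Vn
  haveI := h.Qn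
  haveI : Fact (Nat.Prime 2) := ⟨Nat.prime_two⟩
  let K : Subgroup G :=
    { carrier := {k | k ∈ Subgroup.centralizer (V : Set G) ∧ ∀ x ∈ Q, ⁅k, x⁆ ∈ V}
      one_mem' := ⟨one_mem _, fun x _ => by rw [commutatorElement_one_left]; exact one_mem _⟩
      mul_mem' := fun {a b} ha hb => ⟨mul_mem ha.1 hb.1, fun x hx => by
        have e : ⁅a * b, x⁆ = a * ⁅b, x⁆ * a⁻¹ * ⁅a, x⁆ := by
          simp only [commutatorElement_def]; group
        rw [e]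
        exact mul_mem (h.conjV (hb.2 x hx) a) (ha.2 x hx)⟩
      inv_mem' := fun {a} ha => ⟨inv_mem ha.1, fun x hx => by
        have e : ⁅a⁻¹, x⁆ = a⁻¹ * ⁅a, x⁆⁻¹ * a⁻¹⁻¹ := by simp only [commutatorElement_def]; group
        rw [e]
        exact h.conjV (inv_mem (ha.2 x hx)) _⟩ }
  have hKn : K.Normal := ⟨fun a ha b => ⟨(inferInstance :
      (Subgroup.centralizer (V : Set G)).Normal).conj_mem a ha.1 b, fun x hx => by
    have hx' : b⁻¹ * x * b ∈ Q := by simpa using h.conjQ hx b⁻¹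
    have e : ⁅b * a * b⁻¹, x⁆ = b * ⁅a, b⁻¹ * x * b⁆ * b⁻¹ := by
      simp only [commutatorElement_def]; group
    rw [e]
    exact h.conjV (ha.2 _ hx') b⟩⟩
  have hcop : ∀ {a : G}, Odd (orderOf a) → ∀ y ∈ Q, (orderOf a).Coprime (orderOf y) := by
    intro a ha y hy
    obtain ⟨k, hk⟩ := IsPGroup.iff_orderOf.1 h.Qp ⟨y, hy⟩
    rw [Subgroup.orderOf_mk] at hk
    rw [hk]
    exact (Nat.coprime_two_right.2 ha).pow_right k
  have hodd : ∀ a ∈ K, Odd (orderOf a) → a = 1 := by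
    intro a ha ho
    have haQ : a ∈ Q := h.CQ (Subgroup.mem_centralizer_iff.2 fun x hx => by
      have hw : ⁅a, x⁆ ∈ V := ha.2 x hx
      rw [commutatorElement_def] at hw
      exact (Coprime.commute_of_commute_commutator
        (Subgroup.mem_centralizer_iff.1 ha.1 _ hw).symm (hcop ho _ (h.VQ hw))).symm)
    exact orderOf_eq_one_iff.1 ((Nat.coprime_self _).1 (hcop ho a haQ))
  refine h.Qmax K hKn (fun a => ?_) ⟨hg, hk⟩
  obtain ⟨k, m, hm, hkm⟩ :=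
    Nat.exists_eq_pow_mul_and_not_dvd (orderOf_pos (a : G)).ne' 2 (by norm_num)
  refine ⟨k, Subtype.ext ?_⟩
  show (a : G) ^ 2 ^ k = 1
  refine hodd _ (pow_mem a.2 _) ?_
  rw [orderOf_pow' _ (by positivity), hkm, Nat.gcd_eq_right (dvd_mul_right _ _),
    Nat.mul_div_cancel_left _ (by positivity)]
  exact Nat.not_even_iff_odd.1 fun he => hm (even_iff_two_dvd.1 he)

/-- If `Q` is not a Sylow subgroup, it is larger than `V`. -/
theorem exists_not_mem (h : Ctx Q V) (S : Sylow 2 G) (hS : ¬ (S : Subgroup G) ≤ Q) :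
    ∃ x ∈ Q, x ∉ V := by
  by_contra hall
  push Not at hall
  refine hS fun s hs => h.mem_of_kernel (h.twoC _ S.2 hs) fun x hx => ?_
  rw [commutatorElement_def]
  exact mul_mem (h.conjV (hall x hx) s) (inv_mem (hall x hx))

/-- Elements of `Q` fixed modulo `V` by a Sylow subgroup. -/
def P0 (h : Ctx Q V) (S : Subgroup G) : Subgroup G where
  carrier := {x | x ∈ Q ∧ ∀ s ∈ S, ⁅s, x⁆ ∈ V}
  one_mem' := ⟨one_mem _, fun s _ => by rw [commutatorElement_one_right]; exact one_mem _⟩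
  mul_mem' := fun {a b} ha hb => ⟨mul_mem ha.1 hb.1, fun s hs => by
    have e : ⁅s, a * b⁆ = ⁅s, a⁆ * (a * ⁅s, b⁆ * a⁻¹) := by
      simp only [commutatorElement_def]; group
    rw [e]
    exact mul_mem (ha.2 s hs) (h.conjV (hb.2 s hs) a)⟩
  inv_mem' := fun {a} ha => ⟨inv_mem ha.1, fun s hs => by
    have e : ⁅s, a⁻¹⁆ = a⁻¹ * ⁅s, a⁆⁻¹ * a⁻¹⁻¹ := by simp only [commutatorElement_def]; group
    rw [e]
    exact h.conjV (inv_mem (ha.2 s hs)) _⟩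

theorem mem_P0 (h : Ctx Q V) {S : Subgroup G} {x : G} :
    x ∈ h.P0 S ↔ x ∈ Q ∧ ∀ s ∈ S, ⁅s, x⁆ ∈ V := Iff.rfl

theorem V_le_P0 (h : Ctx Q V) (S : Subgroup G) : V ≤ h.P0 S := fun v hv =>
  ⟨h.VQ hv, fun s _ => by rw [commutatorElement_def]; exact mul_mem (h.conjV hv s) (inv_mem hv)⟩

/-- The fibres of squaring on `Q / V` have the same size. -/
theorem card_fibre_eq (h : Ctx Q V) {v v' : G} (hv : v ∈ V) (hv' : v' ∈ V) (h1 : v ≠ 1)
    (h1' : v' ≠ 1) :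
    (haveI := h.Vn
    Nat.card {w : G ⧸ V // w ∈ Q.map (QuotientGroup.mk' V) ∧ sqW w = v} =
      Nat.card {w : G ⧸ V // w ∈ Q.map (QuotientGroup.mk' V) ∧ sqW w = v'}) := by
  haveI := h.Vn
  obtain ⟨g, hg⟩ := h.trans v hv v' hv' h1 h1'
  refine Nat.card_congr (Equiv.subtypeEquiv (MulAut.conj (g : G ⧸ V)).toEquiv fun w => ?_)
  constructor
  · rintro ⟨⟨x, hx, rfl⟩, hw⟩
    have e : (MulAut.conj (g : G ⧸ V)).toEquiv (QuotientGroup.mk' V x) =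
        ((g * x * g⁻¹ : G) : G ⧸ V) := rfl
    rw [e]
    refine ⟨⟨_, h.conjQ hx g, rfl⟩, ?_⟩
    rw [h.sqW_mk (h.conjQ hx g), ← hg, ← hw, QuotientGroup.mk'_apply, h.sqW_mk hx]
    group
  · rintro ⟨⟨x, hx, hxw⟩, hw⟩
    have e : w = ((g⁻¹ * x * g : G) : G ⧸ V) := by
      have h2 : (g : G ⧸ V) * w * (g : G ⧸ V)⁻¹ = (x : G ⧸ V) := hxw.symm
      rw [QuotientGroup.mk_mul, QuotientGroup.mk_mul, QuotientGroup.mk_inv, ← h2]
      group
    have hx' : g⁻¹ * x * g ∈ Q := by simpa using h.conjQ hx g⁻¹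
    rw [← hxw, QuotientGroup.mk'_apply, h.sqW_mk hx] at hw
    rw [e]
    refine ⟨⟨_, hx', rfl⟩, ?_⟩
    rw [h.sqW_mk hx']
    calc g⁻¹ * x * g * (g⁻¹ * x * g) = g⁻¹ * (x * x) * g := by group
      _ = v := by rw [hw, ← hg]; group

/-- The common fibre size is odd. -/
theorem odd_fibre (h : Ctx Q V) (hne : ∃ x ∈ Q, x ∉ V) {v : G} (hv : v ∈ V) (h1 : v ≠ 1) :
    (haveI := h.Vn
    Odd (Nat.card {w : G ⧸ V // w ∈ Q.map (QuotientGroup.mk' V) ∧ sqW w = v})) := by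
  classical
  haveI := h.Vn
  haveI : Fact (Nat.Prime 2) := ⟨Nat.prime_two⟩
  haveI := Fintype.ofFinite G
  haveI := Fintype.ofFinite (G ⧸ V)
  set Wg := Q.map (QuotientGroup.mk' V) with hWg
  set X : Finset (G ⧸ V) := Finset.univ.filter fun w => w ∈ Wg ∧ w ≠ 1
  set Vs : Finset G := Finset.univ.filter fun y => y ∈ V ∧ y ≠ 1
  have hmaps : ∀ w ∈ X, sqW w ∈ Vs := by
    intro w hw
    obtain ⟨⟨x, hx, rfl⟩, hw1⟩ := (Finset.mem_filter.1 hw).2
    refine Finset.mem_filter.2 ⟨Finset.mem_univ _, ?_⟩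
    rw [QuotientGroup.mk'_apply, h.sqW_mk hx]
    exact ⟨h.sq x hx, fun e => hw1 ((QuotientGroup.eq_one_iff x).2 ((h.memV x).2 e))⟩
  have hsum := Finset.card_eq_sum_card_fiberwise hmaps
  have hfib : ∀ y ∈ Vs, (X.filter fun w => sqW w = y).card =
      Nat.card {w : G ⧸ V // w ∈ Wg ∧ sqW w = v} := by
    intro y hy
    obtain ⟨hyV, hy1⟩ := (Finset.mem_filter.1 hy).2
    rw [← h.card_fibre_eq hyV hv hy1 h1, Nat.card_eq_fintype_card, Fintype.card_subtype]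
    refine congrArg Finset.card ?_
    ext w
    simp only [X, Finset.mem_filter, Finset.mem_univ, true_and, and_congr_left_iff]
    intro hw
    refine ⟨fun hh => hh.1, fun hh => ⟨hh, fun e => ?_⟩⟩
    apply hy1
    rw [← hw, e, ← QuotientGroup.mk_one, h.sqW_mk Q.one_mem, one_mul]
  rw [Finset.sum_congr rfl hfib, Finset.sum_const, smul_eq_mul] at hsum
  have hX : X.card + 1 = Nat.card Wg := by
    have e : X = (Finset.univ.filter fun w => w ∈ Wg).erase 1 := by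
      ext w; simp [X, and_comm]
    rw [e, Finset.card_erase_add_one (by simp [one_mem]), Nat.card_eq_fintype_card,
      ← Fintype.card_subtype]
  obtain ⟨k, hk⟩ := IsPGroup.iff_card.1 (h.Qp.map (QuotientGroup.mk' V) : IsPGroup 2 Wg)
  have hk0 : k ≠ 0 := by
    rintro rfl
    rw [pow_zero, Subgroup.card_eq_one] at hk
    obtain ⟨x, hx, hxV⟩ := hne
    refine hxV ((QuotientGroup.eq_one_iff x).1 (Subgroup.mem_bot.1 (hk ▸ ⟨x, hx, rfl⟩)))
  have hXodd : Odd X.card := by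
    rw [hk] at hX
    obtain ⟨j, rfl⟩ := Nat.exists_eq_succ_of_ne_zero hk0
    refine ⟨2 ^ j - 1, ?_⟩
    have := Nat.one_le_two_pow (n := j)
    rw [pow_succ] at hX
    omega
  exact (Nat.odd_mul.1 (hsum ▸ hXodd)).2

/-- Every involution is the square of an element of `Q` fixed modulo `V`. -/
theorem exists_sq_P0 (h : Ctx Q V) (S : Sylow 2 G) (hne : ∃ x ∈ Q, x ∉ V) {v : G} (hv : v ∈ V)
    (h1 : v ≠ 1) : ∃ x ∈ h.P0 (S : Subgroup G), x * x = v := by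
  haveI := h.Vn
  haveI : Fact (Nat.Prime 2) := ⟨Nat.prime_two⟩
  set Wg := Q.map (QuotientGroup.mk' V) with hWg
  let X := {w : G ⧸ V // w ∈ Wg ∧ sqW w = v}
  have hX : ∀ (s : (S : Subgroup G)) (w : G ⧸ V), w ∈ Wg ∧ sqW w = v →
      (((s : G) : G ⧸ V) * w * ((s : G) : G ⧸ V)⁻¹) ∈ Wg ∧
        sqW (((s : G) : G ⧸ V) * w * ((s : G) : G ⧸ V)⁻¹) = v := by
    rintro s _ ⟨⟨x, hx, rfl⟩, hw⟩
    rw [QuotientGroup.mk'_apply, h.sqW_mk hx] at hw
    rw [QuotientGroup.mk'_apply, ← QuotientGroup.mk_mul, ← QuotientGroup.mk_inv,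
      ← QuotientGroup.mk_mul]
    refine ⟨⟨_, h.conjQ hx s, rfl⟩, ?_⟩
    rw [h.sqW_mk (h.conjQ hx s), show (s : G) * x * (s : G)⁻¹ * ((s : G) * x * (s : G)⁻¹) =
      (s : G) * (x * x) * (s : G)⁻¹ by group, hw,
      ← Subgroup.mem_centralizer_iff.1 (h.twoC _ S.2 s.2) v hv, mul_inv_cancel_right]
  letI : MulAction (S : Subgroup G) X :=
    { smul := fun s w => ⟨((s : G) : G ⧸ V) * w.1 * ((s : G) : G ⧸ V)⁻¹, hX s w.1 w.2⟩
      one_smul := fun w => Subtype.ext (by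
        show ((((1 : (S : Subgroup G)) : G)) : G ⧸ V) * w.1 * _⁻¹ = w.1
        simp)
      mul_smul := fun a b w => Subtype.ext (by
        show (((a * b : (S : Subgroup G)) : G) : G ⧸ V) * w.1 * _⁻¹ =
          ((a : G) : G ⧸ V) * (((b : G) : G ⧸ V) * w.1 * ((b : G) : G ⧸ V)⁻¹) *
            ((a : G) : G ⧸ V)⁻¹
        rw [Subgroup.coe_mul, QuotientGroup.mk_mul]
        group) }
  have hodd : Odd (Nat.card X) := h.odd_fibre hne hv h1
  obtain ⟨w, hw⟩ := S.2.nonempty_fixed_point_of_prime_not_dvd_card X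
    fun hd => (Nat.not_even_iff_odd.2 hodd) (even_iff_two_dvd.2 hd)
  obtain ⟨⟨x, hx, hxw⟩, hsq⟩ := w.2
  refine ⟨x, ⟨hx, fun s hs => ?_⟩, by rwa [← hxw, QuotientGroup.mk'_apply, h.sqW_mk hx] at hsq⟩
  have h2 := congrArg Subtype.val (hw ⟨s, hs⟩)
  change (s : G ⧸ V) * w.1 * (s : G ⧸ V)⁻¹ = w.1 at h2
  rw [← hxw] at h2
  rw [← QuotientGroup.eq_one_iff, ← QuotientGroup.mk'_apply, map_commutatorElement,
    commutatorElement_def, mul_inv_eq_one]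
  exact h2

/-- Commutators with `s ∈ C(V)` are orthogonal to elements fixed by `s`. -/
theorem comm_perp (h : Ctx Q V) {s x c : G} (hs : s ∈ Subgroup.centralizer (V : Set G)) (hx : x ∈ Q)
    (hc : c ∈ Q) (hsc : ⁅s, c⁆ ∈ V) : ⁅c, ⁅s, x⁆⁆ = 1 := by
  have hsx : s * x * s⁻¹ ∈ Q := h.conjQ hx s
  have h1 : ⁅s * c * s⁻¹, s * x * s⁻¹⁆ = ⁅c, x⁆ := by
    have e : ⁅s * c * s⁻¹, s * x * s⁻¹⁆ = s * ⁅c, x⁆ * s⁻¹ := by
      simp only [commutatorElement_def]; group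
    rw [e, ← Subgroup.mem_centralizer_iff.1 hs _ (h.comm_mem hc hx), mul_inv_cancel_right]
  have hone : ∀ {v y : G}, v ∈ V → y ∈ Q → ⁅v, y⁆ = 1 := fun hv hy =>
    commutatorElement_eq_one_iff_commute.2 (h.Vcomm _ hv _ hy).symm
  have h2 : ⁅c, s * x * s⁻¹⁆ = ⁅c, x⁆ := by
    rw [← h1, show s * c * s⁻¹ = ⁅s, c⁆ * c by rw [commutatorElement_def]; group,
      h.comm_mul_left (h.VQ hsc) hc hsx, hone hsc hsx, one_mul]
  rw [show ⁅s, x⁆ = s * x * s⁻¹ * x⁻¹ from commutatorElement_def s x,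
    h.comm_mul_right hc hsx (inv_mem hx), h2, ← h.comm_mul_right hc hx (inv_mem hx), mul_inv_cancel,
    commutatorElement_one_right]

/-- Commutators with Sylow elements are fixed modulo `V`. -/
theorem comm_mem_P0 (h : Ctx Q V) (S : Sylow 2 G) (hne : ∃ x ∈ Q, x ∉ V) {s x : G}
    (hs : s ∈ (S : Subgroup G)) (hx : x ∈ Q) : ⁅s, x⁆ ∈ h.P0 (S : Subgroup G) := by
  by_cases hj : ⁅s, x⁆ ∈ V
  · exact h.V_le_P0 _ hj
  have hjQ := h.commQ s hx
  obtain ⟨c, hc, hc2⟩ := h.exists_sq_P0 S hne (h.sq _ hjQ) fun e => hj ((h.memV _).2 e)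
  have h1 := h.eq_of_sq_eq hc.1 hjQ (h.comm_perp (h.twoC _ S.2 hs) hx hc.1 (hc.2 s hs)) hc2
  have := mul_mem hc (h.V_le_P0 (S : Subgroup G) h1)
  rwa [mul_inv_cancel_left] at this

/-- The normaliser of a Sylow subgroup is transitive on the involutions. -/
theorem trans_normalizer (h : Ctx Q V) (S : Sylow 2 G) {v v' : G} (hv : v ∈ V) (hv' : v' ∈ V)
    (h1 : v ≠ 1) (h1' : v' ≠ 1) :
    ∃ n ∈ Subgroup.normalizer ((S : Subgroup G) : Set G), n * v * n⁻¹ = v' := by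
  haveI := h.Vn
  haveI : Fact (Nat.Prime 2) := ⟨Nat.prime_two⟩
  obtain ⟨g, hg⟩ := h.trans v hv v' hv' h1 h1'
  set C := Subgroup.centralizer (V : Set G) with hC
  have hSC : (S : Subgroup G) ≤ C := h.twoC _ S.2
  have htop := Sylow.normalizer_sup_eq_top (S.subtype hSC)
  rw [Sylow.coe_subtype, Subgroup.map_subgroupOf_eq_of_le hSC] at htop
  obtain ⟨n, hn, c, hc, rfl⟩ := Subgroup.mem_sup_of_normal_right.mp
    (htop ▸ Subgroup.mem_top g :
      g ∈ Subgroup.normalizer ((S : Subgroup G) : Set G) ⊔ C)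
  refine ⟨n, hn, ?_⟩
  rw [← hg, show n * c * v * (n * c)⁻¹ = n * (c * v * c⁻¹) * n⁻¹ by group,
    ← Subgroup.mem_centralizer_iff.1 hc v hv, mul_inv_cancel_right]

theorem conj_P0 (h : Ctx Q V) (S : Sylow 2 G) {n c : G}
    (hn : n ∈ Subgroup.normalizer ((S : Subgroup G) : Set G))
    (hc : c ∈ h.P0 (S : Subgroup G)) : n * c * n⁻¹ ∈ h.P0 (S : Subgroup G) := by
  refine ⟨h.conjQ hc.1 n, fun s hs => ?_⟩
  have hs' : n⁻¹ * s * n ∈ (S : Subgroup G) := by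
    have h1 := (Subgroup.mem_normalizer_iff.1 (inv_mem hn) s).1 hs
    simpa using h1
  have e : ⁅s, n * c * n⁻¹⁆ = n * ⁅n⁻¹ * s * n, c⁆ * n⁻¹ := by
    simp only [commutatorElement_def]; group
  rw [e]
  exact h.conjV (hc.2 _ hs') n

/-- A commutator outside `V`. -/
theorem exists_comm_not_mem (h : Ctx Q V) (S : Sylow 2 G) (hS : ¬ (S : Subgroup G) ≤ Q) :
    ∃ s ∈ (S : Subgroup G), ∃ x ∈ Q, ⁅s, x⁆ ∉ V := by
  by_contra hall
  push Not at hall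
  exact hS fun s hs => h.mem_of_kernel (h.twoC _ S.2 hs) fun x hx => hall s hs x hx

/-- Squaring is injective on fixed elements modulo `V`. -/
theorem P0_inj (h : Ctx Q V) (S : Sylow 2 G) (hS : ¬ (S : Subgroup G) ≤ Q) {c c' : G}
    (hc : c ∈ h.P0 (S : Subgroup G)) (hc' : c' ∈ h.P0 (S : Subgroup G))
    (he : c * c = c' * c') : c⁻¹ * c' ∈ V := by
  by_cases h1 : c * c = 1
  · exact mul_mem (inv_mem ((h.memV c).2 h1)) ((h.memV c').2 (he ▸ h1))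
  obtain ⟨s, hs, x, hx, hj⟩ := h.exists_comm_not_mem S hS
  set j := ⁅s, x⁆ with hjdef
  obtain ⟨n, hn, hn2⟩ := h.trans_normalizer S (h.sq _ hc.1) (h.sq _ (h.commQ s hx)) h1
    fun e => hj ((h.memV _).2 e)
  have key : ∀ d ∈ h.P0 (S : Subgroup G), d * d = c * c → (n * d * n⁻¹)⁻¹ * j ∈ V := by
    intro d hd hdd
    have hd' := h.conj_P0 S hn hd
    refine h.eq_of_sq_eq hd'.1 (h.commQ s hx)
      (h.comm_perp (h.twoC _ S.2 hs) hx hd'.1 (hd'.2 s hs)) ?_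
    rw [← hn2, ← hdd]; group
  have h2 := mul_mem (key c hc rfl) (inv_mem (key c' hc' he.symm))
  have h3 := h.conjV h2 n⁻¹
  have e : n⁻¹ * ((n * c * n⁻¹)⁻¹ * j * ((n * c' * n⁻¹)⁻¹ * j)⁻¹) * n⁻¹⁻¹ = c⁻¹ * c' := by group
  rwa [e] at h3

/-- The fixed elements commute. -/
theorem P0_comm (h : Ctx Q V) (S : Sylow 2 G) (hS : ¬ (S : Subgroup G) ≤ Q) {c d : G}
    (hc : c ∈ h.P0 (S : Subgroup G)) (hd : d ∈ h.P0 (S : Subgroup G)) : ⁅c, d⁆ = 1 := by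
  by_cases h1 : c * c = 1
  · exact commutatorElement_eq_one_iff_commute.2 (h.Vcomm c ((h.memV c).2 h1) d hd.1).symm
  obtain ⟨s, hs, x, hx, hj⟩ := h.exists_comm_not_mem S hS
  have hne := h.exists_not_mem S hS
  obtain ⟨n, hn, hn2⟩ := h.trans_normalizer S (h.sq _ (h.commQ s hx)) (h.sq _ hc.1)
    (fun e => hj ((h.memV _).2 e)) h1
  set j := ⁅s, x⁆ with hjdef
  have hjP : j ∈ h.P0 (S : Subgroup G) := h.comm_mem_P0 S hne hs hx
  have hn' : n⁻¹ ∈ Subgroup.normalizer ((S : Subgroup G) : Set G) := inv_mem hn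
  set j' := n * j * n⁻¹ with hj'def
  have hj'P := h.conj_P0 S hn hjP
  have hj' : ⁅d, j'⁆ = 1 := by
    have hd' := h.conj_P0 S hn' hd
    have h3 : ⁅n⁻¹ * d * n⁻¹⁻¹, j⁆ = 1 :=
      h.comm_perp (h.twoC _ S.2 hs) hx hd'.1 (hd'.2 s hs)
    have e : ⁅d, j'⁆ = n * ⁅n⁻¹ * d * n⁻¹⁻¹, j⁆ * n⁻¹ := by
      simp only [hj'def, commutatorElement_def]; group
    rw [e, h3]; group
  have hv : j'⁻¹ * c ∈ V := h.P0_inj S hS hj'P hc (by rw [hj'def, ← hn2]; group)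
  rw [show c = j' * (j'⁻¹ * c) by group, h.comm_mul_left hj'P.1 (h.VQ hv) hd.1,
    commutatorElement_eq_one_iff_commute.2 (h.Vcomm _ hv d hd.1).symm, mul_one,
    ← commutatorElement_inv, hj', inv_one]

/-- Sylow elements square into `Q`. -/
theorem sq_mem_Q (h : Ctx Q V) (S : Sylow 2 G) (hne : ∃ x ∈ Q, x ∉ V) {s : G}
    (hs : s ∈ (S : Subgroup G)) : s * s ∈ Q := by
  refine h.mem_of_kernel (h.twoC _ S.2 (mul_mem hs hs)) fun x hx => ?_
  have hj := h.comm_mem_P0 S hne hs hx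
  have e : ⁅s * s, x⁆ = ⁅s, ⁅s, x⁆⁆ * (⁅s, x⁆ * ⁅s, x⁆) := by
    simp only [commutatorElement_def]; group
  rw [e]
  exact mul_mem (hj.2 s hs) (h.sq _ hj.1)

end Ctx

end CfsgLib.OneClassInvolutions
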