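import Cfsg.Agent.OneClassInvolutions.Setup
import Cfsg.Agent.OneClassInvolutions.Assembly
import Cfsg.Agent.Constrained.UpperSeries
import Cfsg.Agent.PLength.One

/-!
Thompson's theorem on solvable groups with one class of involutions.
-/

set_option autoImplicit false

namespace CfsgLib.OneClassInvolutions

open Cfsg

/-- With trivial odd core the 2-core is a Sylow subgroup. -/
theorem not_two_dvd_index_pCore {G : Type*} [Group G] [Finite G] [Group.IsSolvable G]
    (hO : pPrimeCore 2 G = ⊥) (hconj : OneClass G)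
    (htwo : ∃ x y : G, x ≠ y ∧ x ≠ 1 ∧ x ^ 2 = 1 ∧ y ≠ 1 ∧ y ^ 2 = 1) :
    ¬ 2 ∣ (pCore 2 G).index := by
  intro hidx
  haveI : Fact (Nat.Prime 2) := ⟨Nat.prime_two⟩
  haveI := SolvableCore.pCore_normal' 2 G
  obtain ⟨V, hVn, hV⟩ := exists_V hO hconj
  haveI := hVn
  obtain ⟨x, y, hxy, hx1, hx, hy1, hy⟩ := htwo
  rw [pow_two] at hx hy
  have hV1 : V ≠ ⊥ := fun h => hx1 (Subgroup.mem_bot.1 (h ▸ (hV x).2 hx))
  have hVp : IsPGroup 2 V := fun v => ⟨1, Subtype.ext (by
    show ((v : G)) ^ 2 ^ 1 = 1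
    rw [pow_one, pow_two]; exact (hV v).1 v.2)⟩
  have h4 : 4 ≤ Nat.card V := by
    obtain ⟨k, hk⟩ := IsPGroup.iff_card.1 hVp
    have h3 : 3 ≤ Nat.card V := by
      haveI := Fintype.ofFinite V
      rw [Nat.card_eq_fintype_card]
      refine Fintype.two_lt_card_iff.mpr
        ⟨1, ⟨x, (hV x).2 hx⟩, ⟨y, (hV y).2 hy⟩, ?_, ?_, ?_⟩
      · exact fun h => hx1 (congrArg Subtype.val h).symm
      · exact fun h => hy1 (congrArg Subtype.val h).symm
      · exact fun h => hxy (congrArg Subtype.val h)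
    rw [hk] at h3 ⊢
    rcases k with _ | _ | k
    · norm_num at h3
    · norm_num at h3
    · exact le_trans (by norm_num) (Nat.pow_le_pow_right (by norm_num) (show 2 ≤ k + 2 by omega))
  obtain ⟨S⟩ : Nonempty (Sylow 2 G) := inferInstance
  have hSQ : ¬ (S : Subgroup G) ≤ pCore 2 G := fun h =>
    S.not_dvd_index (hidx.trans (Subgroup.index_dvd_of_le h))
  obtain ⟨u, huC, huodd, hu1⟩ : ∃ u ∈ Subgroup.centralizer (V : Set G),
      Odd (orderOf u) ∧ u ≠ 1 := by
    by_contra hall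
    push Not at hall
    have hC : IsPGroup 2 (Subgroup.centralizer (V : Set G)) := by
      intro a
      obtain ⟨k, m, hm, hkm⟩ :=
        Nat.exists_eq_pow_mul_and_not_dvd (orderOf_pos (a : G)).ne' 2 (by norm_num)
      refine ⟨k, Subtype.ext ?_⟩
      show (a : G) ^ 2 ^ k = 1
      refine hall _ (pow_mem a.2 _) ?_
      rw [orderOf_pow' _ (by positivity), hkm, Nat.gcd_eq_right (dvd_mul_right _ _),
        Nat.mul_div_cancel_left _ (by positivity)]
      exact Nat.not_even_iff_odd.1 fun he => hm (even_iff_two_dvd.1 he)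
    exact hSQ ((le_centralizer_of_isPGroup hconj hV hV1 S.2).trans
      (Constrained.le_pCore inferInstance hC))
  have hctx : Ctx (pCore 2 G) V :=
    { Qn := inferInstance
      Vn := hVn
      Qp := Constrained.isPGroup_pCore
      Qmax := fun N hN hNp => Constrained.le_pCore hN hNp
      CQ := SolvableCore.centralizer_pCore_le hO
      memV := hV
      VQ := fun v hv => (sq_one_mem hO hconj ((hV v).1 hv)).1
      Vcomm := fun v hv q hq =>
        Subgroup.mem_centralizer_iff.1 (sq_one_mem hO hconj ((hV v).1 hv)).2 q hq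
      sq := sq_mem_of_odd hO hconj hV huC huodd hu1
      trans := fun v hv v' hv' h1 h1' => isConj_iff.1
        (hconj v v' h1 (by rw [pow_two, (hV v).1 hv]) h1' (by rw [pow_two, (hV v').1 hv']))
      twoC := fun T hT => le_centralizer_of_isPGroup hconj hV hV1 hT }
  exact false_of_not_sylow_le hctx h4 S hSQ

/-- The hypotheses pass to the quotient by the odd core. -/
theorem oneClass_quotient {G : Type*} [Group G] [Finite G] (hconj : OneClass G) :
    OneClass (G ⧸ pPrimeCore 2 G) := by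
  haveI : Fact (Nat.Prime 2) := ⟨Nat.prime_two⟩
  have lift : ∀ a : G ⧸ pPrimeCore 2 G, a ≠ 1 → a ^ 2 = 1 →
      ∃ x : G, (x : G ⧸ pPrimeCore 2 G) = a ∧ x ≠ 1 ∧ x ^ 2 = 1 := by
    intro a ha1 ha
    obtain ⟨g, rfl⟩ := QuotientGroup.mk_surjective a
    obtain ⟨j, hj⟩ : Odd (Nat.card (pPrimeCore 2 G)) :=
      Nat.not_even_iff_odd.1 fun he => Constrained.pPrimeCore_not_dvd (even_iff_two_dvd.1 he)
    have hg : g ^ 2 ∈ pPrimeCore 2 G := by
      rw [← QuotientGroup.eq_one_iff, QuotientGroup.mk_pow]; exact ha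
    have himg : ((g ^ Nat.card (pPrimeCore 2 G) : G) : G ⧸ pPrimeCore 2 G) = g := by
      rw [QuotientGroup.mk_pow, hj, pow_succ, pow_mul, ha, one_pow, one_mul]
    refine ⟨g ^ Nat.card (pPrimeCore 2 G), himg, fun e => ha1 ?_, ?_⟩
    · rw [← himg, e, QuotientGroup.mk_one]
    · rw [← pow_mul, mul_comm, pow_mul]
      have := pow_card_eq_one' (x := (⟨g ^ 2, hg⟩ : pPrimeCore 2 G))
      exact congrArg Subtype.val this
  intro a b ha1 ha hb1 hb
  obtain ⟨x, rfl, hx1, hx⟩ := lift a ha1 ha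
  obtain ⟨y, rfl, hy1, hy⟩ := lift b hb1 hb
  exact (QuotientGroup.mk' (pPrimeCore 2 G)).map_isConj (hconj x y hx1 hx hy1 hy)

/-- **Thompson**: 2-length at most one. -/
theorem pLengthLE_one {G : Type*} [Group G] [Finite G] [Group.IsSolvable G] (hconj : OneClass G)
    (S : Sylow 2 G) (htwo : ∃ x y : G, x ∈ (S : Subgroup G) ∧ y ∈ (S : Subgroup G) ∧ x ≠ y ∧
      x ≠ 1 ∧ x ^ 2 = 1 ∧ y ≠ 1 ∧ y ^ 2 = 1) : PLengthLE 2 1 G := by
  haveI : Fact (Nat.Prime 2) := ⟨Nat.prime_two⟩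
  obtain ⟨x, y, hxS, hyS, hxy, hx1, hx, hy1, hy⟩ := htwo
  have hnot : ∀ {x : G}, x ≠ 1 → x ^ 2 = 1 → (x : G ⧸ pPrimeCore 2 G) ≠ 1 := by
    intro x hx1 hx h
    have h1 : orderOf x ∣ Nat.card (pPrimeCore 2 G) :=
      Subgroup.orderOf_dvd_natCard _ ((QuotientGroup.eq_one_iff x).1 h)
    rw [orderOf_eq_prime hx hx1] at h1
    exact Constrained.pPrimeCore_not_dvd h1
  have hne : (x : G ⧸ pPrimeCore 2 G) ≠ (y : G ⧸ pPrimeCore 2 G) := by
    intro h
    rw [QuotientGroup.eq] at h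
    have h1 : x⁻¹ * y ∈ pPrimeCore 2 G ⊓ (S : Subgroup G) :=
      Subgroup.mem_inf.2 ⟨h, mul_mem (inv_mem hxS) hyS⟩
    rw [PLength.inf_eq_bot_of_coprime (PLength.pPrimeCore_card_coprime 2 G) S.2, Subgroup.mem_bot,
      inv_mul_eq_one] at h1
    exact hxy h1
  have h := not_two_dvd_index_pCore (Constrained.pPrimeCore_quotient_pPrimeCore (p := 2))
    (oneClass_quotient hconj) ⟨x, y, hne, hnot hx1 hx, by rw [← QuotientGroup.mk_pow, hx]; rfl,
      hnot hy1 hy, by rw [← QuotientGroup.mk_pow, hy]; rfl⟩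
  show (upperPSeries 2 G 3).1 = ⊤
  refine top_unique (Constrained.le_upperPSeries_succ_of_even (n := 2) even_two inferInstance ?_)
  rw [Subgroup.relIndex_top_right, Constrained.upperPSeries_two_eq]
  rwa [pPrimePCore, Subgroup.index_comap_of_surjective _ (QuotientGroup.mk'_surjective _)]

/-- The normaliser of a Sylow subgroup is transitive on its involutions. -/
theorem exists_normalizer_conj {G : Type*} [Group G] [Finite G] (hconj : OneClass G)
    (hpl : PLengthLE 2 1 G) (S : Sylow 2 G) (x y : ↥(S : Subgroup G)) (hx1 : x ≠ 1) (hx : x ^ 2 = 1)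
    (hy1 : y ≠ 1) (hy : y ^ 2 = 1) :
    ∃ n : ↥(Subgroup.normalizer ((S : Subgroup G) : Set G)),
      (S : Subgroup G).normalizerMonoidHom n x = y := by
  haveI : Fact (Nat.Prime 2) := ⟨Nat.prime_two⟩
  obtain ⟨K, hKn, hKc, -, -, hfr⟩ := PLength.exists_frattini_of_pLengthLE_one hpl S
  haveI := hKn
  obtain ⟨g, hg⟩ := isConj_iff.1 (hconj (x : G) (y : G) (fun h => hx1 (Subtype.ext h))
    (by rw [← Subgroup.coe_pow, hx]; rfl) (fun h => hy1 (Subtype.ext h))
    (by rw [← Subgroup.coe_pow, hy]; rfl))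
  obtain ⟨n, hn, k, hk, rfl⟩ := hfr g
  have hkx : k * (x : G) * k⁻¹ = n⁻¹ * (y : G) * n := by rw [← hg]; group
  have hmem : k * (x : G) * k⁻¹ ∈ (S : Subgroup G) := by
    rw [hkx]
    have h1 := (Subgroup.mem_normalizer_iff.1 (inv_mem hn) (y : G)).1 y.2
    rwa [inv_inv] at h1
  have hcomm := PLength.commute_of_conj_mem hKc S.2 hk x.2 hmem
  refine ⟨⟨n, hn⟩, Subtype.ext ?_⟩
  show n * (x : G) * n⁻¹ = (y : G)
  rw [← hg]
  calc n * (x : G) * n⁻¹ = n * ((x : G) * (k * k⁻¹)) * n⁻¹ := by group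
    _ = n * (k * (x : G) * k⁻¹) * n⁻¹ := by rw [← mul_assoc (x : G), ← hcomm]
    _ = n * k * (x : G) * (n * k)⁻¹ := by group

/-- An abelian 2-group with automorphisms transitive on involutions is homocyclic. -/
theorem exists_homocyclic {A : Type*} [Group A] [Finite A] (hA : IsPGroup 2 A)
    (hc : IsMulCommutative A)
    (htr : ∀ x y : A, x ≠ 1 → x ^ 2 = 1 → y ≠ 1 → y ^ 2 = 1 → ∃ a : MulAut A, a x = y) :
    ∃ m r : ℕ, Nonempty (A ≃* (Fin r → Multiplicative (ZMod (2 ^ m)))) := by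
  classical
  haveI : Fact (Nat.Prime 2) := ⟨Nat.prime_two⟩
  letI : CommGroup A := { (inferInstance : Group A) with mul_comm := fun a b => hc.is_comm.comm a b }
  obtain ⟨ι, hι, n, hn1, ⟨φ⟩⟩ := CommGroup.equiv_prod_multiplicative_zmod_of_finite A
  have hpi : IsPGroup 2 ((i : ι) → Multiplicative (ZMod (n i))) := hA.of_equiv φ
  have hexp : ∀ i, ∃ e, n i = 2 ^ e ∧ 0 < e := by
    intro i
    haveI : NeZero (n i) := ⟨by have := hn1 i; omega⟩
    obtain ⟨e, he⟩ := (IsPGroup.iff_card).1 (hpi.of_surjective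
      (Pi.evalMonoidHom (fun i => Multiplicative (ZMod (n i))) i) (fun z => ⟨Pi.mulSingle i z, by simp⟩))
    rw [Nat.card_congr Multiplicative.toAdd, Nat.card_zmod] at he
    refine ⟨e, he, Nat.pos_of_ne_zero ?_⟩
    rintro rfl
    have := hn1 i
    rw [he] at this
    simp at this
  choose e hne he0 using hexp
  obtain ⟨v, hv2, hv1, hvpow⟩ : ∃ v : ι → (i : ι) → Multiplicative (ZMod (n i)),
      (∀ i, v i ^ 2 = 1) ∧ (∀ i, v i i ≠ 1) ∧ ∀ i, ∃ w, w ^ 2 ^ (e i - 1) = v i := by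
    let t : (i : ι) → Multiplicative (ZMod (n i)) := fun i =>
      Multiplicative.ofAdd (1 : ZMod (n i))
    have ht : ∀ i (k : ℕ), t i ^ k = 1 ↔ n i ∣ k := fun i k => by
      rw [← ofAdd_nsmul, nsmul_one, ← ofAdd_zero, Multiplicative.ofAdd.apply_eq_iff_eq,
        ZMod.natCast_eq_zero_iff]
    refine ⟨fun i => Pi.mulSingle i (t i ^ 2 ^ (e i - 1)), fun i => ?_, fun i => ?_,
      fun i => ⟨Pi.mulSingle i (t i), by rw [← Pi.mulSingle_pow]⟩⟩
    · rw [← Pi.mulSingle_pow, ← pow_mul, ← pow_succ, Nat.sub_add_cancel (he0 i),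
        (ht i _).2 (hne i ▸ dvd_refl _), Pi.mulSingle_one]
    · show (Pi.mulSingle i (t i ^ 2 ^ (e i - 1)) : (j : ι) → Multiplicative (ZMod (n j))) i ≠ 1
      rw [Pi.mulSingle_eq_same, Ne, ht, hne i, Nat.pow_dvd_pow_iff_le_right (by norm_num)]
      have := he0 i
      omega
  have heq : ∀ i j, e i ≤ e j := by
    intro i j
    by_contra hlt
    push Not at hlt
    have hne1 : ∀ k, φ.symm (v k) ≠ 1 := fun k h => hv1 k (by
      have h1 := congrArg φ h
      rw [MulEquiv.apply_symm_apply, map_one] at h1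
      rw [h1]; rfl)
    obtain ⟨a, ha⟩ := htr (φ.symm (v i)) (φ.symm (v j)) (hne1 i) (by rw [← map_pow, hv2, map_one])
      (hne1 j) (by rw [← map_pow, hv2, map_one])
    obtain ⟨w, hw⟩ := hvpow i
    have hj : φ (a (φ.symm w)) ^ 2 ^ (e i - 1) = v j := by
      rw [← map_pow, ← map_pow, ← map_pow, hw, ha, MulEquiv.apply_symm_apply]
    refine hv1 j ?_
    rw [← hj, Pi.pow_apply]
    haveI : NeZero (n j) := ⟨by have := hn1 j; omega⟩
    refine orderOf_dvd_iff_pow_eq_one.1 ((orderOf_dvd_natCard _).trans ?_)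
    rw [Nat.card_congr Multiplicative.toAdd, Nat.card_zmod, hne j]
    exact pow_dvd_pow 2 (by omega)
  rcases isEmpty_or_nonempty ι with hE | ⟨⟨i₀⟩⟩
  · exact ⟨0, 0, ⟨φ.trans
      { toFun := fun _ => Fin.elim0
        invFun := fun _ i => isEmptyElim i
        left_inv := fun f => funext fun i => isEmptyElim i
        right_inv := fun f => funext fun i => i.elim0
        map_mul' := fun f g => funext fun i => i.elim0 }⟩⟩
  · have hall : ∀ i, n i = 2 ^ e i₀ := fun i => by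
      rw [hne i, le_antisymm (heq i i₀) (heq i₀ i)]
    have hn' : n = fun _ => 2 ^ e i₀ := funext hall
    subst hn'
    exact ⟨e i₀, Fintype.card ι, ⟨φ.trans
      (MulEquiv.arrowCongr (Fintype.equivFin ι)
        (MulEquiv.refl (Multiplicative (ZMod (2 ^ e i₀)))))⟩⟩

end CfsgLib.OneClassInvolutions
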