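import Cfsg.Agent.Involutions.SolvableCore
import Cfsg.Agent.Solvable.MinNormal
import Cfsg.Agent.PGroup.Critical
import Cfsg.Agent.Coprime.Stabilizer
import Cfsg.Agent.PLength.One
import Cfsg.Agent.Constrained.Basic

/-!
Solvable groups with trivial odd core and one class of involutions: the involutions form, with the
identity, a central elementary abelian subgroup of the 2-core, and the 2-core is special.
-/

set_option autoImplicit false

namespace CfsgLib.OneClassInvolutions

open Cfsg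

variable {G : Type*} [Group G]

/-- All involutions are conjugate. -/
def OneClass (G : Type*) [Group G] : Prop :=
  ∀ x y : G, x ≠ 1 → x ^ 2 = 1 → y ≠ 1 → y ^ 2 = 1 → IsConj x y

theorem orderOf_dvd_two {x : G} (h : x * x = 1) : orderOf x ∣ 2 :=
  orderOf_dvd_of_pow_eq_one (by rw [pow_two, h])

theorem orderOf_two' {x : G} (h : x * x = 1) (h1 : x ≠ 1) : orderOf x = 2 :=
  orderOf_eq_prime (by rw [pow_two, h]) h1

variable [Finite G]

/-- Every element squaring to one is central in the 2-core. -/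
theorem sq_one_mem [Group.IsSolvable G] (hO : pPrimeCore 2 G = ⊥) (hconj : OneClass G) {x : G}
    (hx : x * x = 1) :
    x ∈ pCore 2 G ∧ x ∈ Subgroup.centralizer (pCore 2 G : Set G) := by
  by_cases hx1 : x = 1
  · subst hx1; exact ⟨one_mem _, one_mem _⟩
  haveI : Fact (Nat.Prime 2) := ⟨Nat.prime_two⟩
  haveI := SolvableCore.pCore_normal' 2 G
  set Q := pCore 2 G
  have hQp : IsPGroup 2 Q := Constrained.isPGroup_pCore
  have hne : Q ≠ ⊥ := fun h => hx1 (by
    have hc : x ∈ Subgroup.centralizer ((pCore 2 G : Subgroup G) : Set G) := by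
      rw [show pCore 2 G = ⊥ from h, Subgroup.mem_centralizer_iff]
      intro a ha
      rw [SetLike.mem_coe, Subgroup.mem_bot] at ha
      rw [ha, one_mul, mul_one]
    have := SolvableCore.centralizer_pCore_le hO hc
    rwa [show pCore 2 G = ⊥ from h, Subgroup.mem_bot] at this)
  haveI : Nontrivial Q := (Subgroup.nontrivial_iff_ne_bot _).2 hne
  obtain ⟨k, hk0, hk⟩ := ((hQp.to_subgroup (Subgroup.center Q)).nontrivial_iff_card).1
    hQp.center_nontrivial
  obtain ⟨z, hz⟩ := exists_prime_orderOf_dvd_card' (G := Subgroup.center Q) 2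
    (hk ▸ dvd_pow_self 2 hk0.ne')
  have hzo : orderOf (((z : Q) : G)) = 2 := by
    rw [Subgroup.orderOf_coe, Subgroup.orderOf_coe, hz]
  have hzW : ((z : Q) : G) ∈ Q ⊓ Subgroup.centralizer (Q : Set G) :=
    ⟨(z : Q).2, Subgroup.mem_centralizer_iff.2 fun q hq =>
      congrArg Subtype.val (Subgroup.mem_center_iff.1 z.2 ⟨q, hq⟩)⟩
  have hz2 : ((z : Q) : G) ^ 2 = 1 := by rw [← hzo, pow_orderOf_eq_one]
  have hz1 : ((z : Q) : G) ≠ 1 := fun h => by rw [h, orderOf_one] at hzo; omega
  obtain ⟨c, hc⟩ := isConj_iff.1 (hconj _ x hz1 hz2 hx1 (by rw [pow_two, hx]))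
  rw [← hc]
  exact (inferInstance : (Q ⊓ Subgroup.centralizer (Q : Set G)).Normal).conj_mem _ hzW c

/-- The subgroup of elements squaring to one. -/
theorem exists_V [Group.IsSolvable G] (hO : pPrimeCore 2 G = ⊥) (hconj : OneClass G) :
    ∃ V : Subgroup G, V.Normal ∧ ∀ x, x ∈ V ↔ x * x = 1 := by
  refine ⟨{ carrier := {x | x * x = 1}
            one_mem' := one_mul 1
            mul_mem' := fun {a b} ha hb => ?_
            inv_mem' := fun {a} ha => ?_ }, ⟨fun a ha g => ?_⟩, fun x => Iff.rfl⟩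
  · have h := Subgroup.mem_centralizer_iff.1 (sq_one_mem hO hconj hb).2 a
      (sq_one_mem hO hconj ha).1
    show a * b * (a * b) = 1
    rw [mul_assoc, ← mul_assoc b a b, ← h, mul_assoc a b b, show b * b = 1 from hb, mul_one]
    exact ha
  · show a⁻¹ * a⁻¹ = 1
    rw [← mul_inv_rev, show a * a = 1 from ha, inv_one]
  · show g * a * g⁻¹ * (g * a * g⁻¹) = 1
    calc g * a * g⁻¹ * (g * a * g⁻¹) = g * (a * a) * g⁻¹ := by group
      _ = 1 := by rw [show a * a = 1 from ha]; group

/-- A normal subgroup with one involution has all of them. -/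
theorem le_of_normal (hconj : OneClass G) {V : Subgroup G} (hV : ∀ x, x ∈ V ↔ x * x = 1)
    {W : Subgroup G} (hW : W.Normal) {w : G} (hwW : w ∈ W) (hw : w * w = 1) (hw1 : w ≠ 1) :
    V ≤ W := by
  intro x hx
  by_cases hx1 : x = 1
  · exact hx1 ▸ one_mem W
  obtain ⟨c, hc⟩ := isConj_iff.1
    (hconj w x hw1 (by rw [pow_two, hw]) hx1 (by rw [pow_two, (hV x).1 hx]))
  exact hc ▸ hW.conj_mem w hwW c

/-- The index of the centraliser of the involutions is odd. -/
theorem not_two_dvd_index_centralizer [Group.IsSolvable G] (hconj : OneClass G) {V : Subgroup G}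
    [V.Normal] (hV : ∀ x, x ∈ V ↔ x * x = 1) (hV1 : V ≠ ⊥) :
    ¬ 2 ∣ (Subgroup.centralizer (V : Set G)).index := by
  intro h2
  set C := Subgroup.centralizer (V : Set G) with hCdef
  haveI hCn : C.Normal := inferInstance
  haveI : Fact (Nat.Prime 2) := ⟨Nat.prime_two⟩
  haveI : Nontrivial (G ⧸ C) := QuotientGroup.nontrivial_iff.2 fun h => by
    rw [h, Subgroup.index_top] at h2; norm_num at h2
  obtain ⟨M, p, k, hMn, hMne, -, -, hp, -, hMc, -⟩ :=
    Solvable.exists_minimal_normal_of_solvable (G := G ⧸ C)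
  haveI : Fact p.Prime := ⟨hp⟩
  set L := M.comap (QuotientGroup.mk' C) with hLdef
  haveI hLn : L.Normal := hMn.comap _
  have hCL : C ≤ L := fun c hc => by
    rw [hLdef, Subgroup.mem_comap, QuotientGroup.mk'_apply, (QuotientGroup.eq_one_iff c).2 hc]
    exact one_mem _
  have hLC : ¬ L ≤ C := fun h => hMne (eq_bot_iff.2 fun y hy => by
    obtain ⟨g, rfl⟩ := QuotientGroup.mk_surjective y
    exact Subgroup.mem_bot.2 ((QuotientGroup.eq_one_iff g).2 (h hy)))
  have hfix : ∀ v ∈ V, v ≠ 1 → ¬ ∀ l ∈ L, Commute l v := by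
    intro v hv hv1 hall
    refine hLC (Subgroup.le_centralizer_iff.1
      (le_of_normal hconj hV (W := Subgroup.centralizer (L : Set G)) inferInstance
        (Subgroup.mem_centralizer_iff.2 fun l hl => hall l hl) ((hV v).1 hv) hv1))
  obtain ⟨P⟩ : Nonempty (Sylow p ↥L) := inferInstance
  set PG := (P : Subgroup ↥L).map L.subtype with hPG
  have hPGL : PG ≤ L := Subgroup.map_subtype_le _
  have hsup : C ⊔ PG = L := by
    refine le_antisymm (sup_le hCL hPGL) (Subgroup.relIndex_eq_one.mp ?_)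
    have h1 : (C ⊔ PG).relIndex L ∣ p ^ k := by
      have h : C.relIndex L = Nat.card M := by
        conv_lhs => arg 1; rw [← QuotientGroup.ker_mk' C, ← MonoidHom.comap_bot]
        rw [hLdef, Subgroup.relIndex_comap, Subgroup.map_comap_eq_self_of_surjective
          (QuotientGroup.mk'_surjective C), Subgroup.relIndex_bot_left]
      rw [← hMc, ← h]
      exact Subgroup.relIndex_dvd_of_le_left _ le_sup_left
    have h3 : (C ⊔ PG).relIndex L ∣ (P : Subgroup ↥L).index := by
      have : PG.relIndex L = (P : Subgroup ↥L).index := by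
        rw [hPG, Subgroup.relIndex, Subgroup.subgroupOf,
          Subgroup.comap_map_eq_self_of_injective L.subtype_injective]
      rw [← this]
      exact Subgroup.relIndex_dvd_of_le_left _ le_sup_right
    exact Nat.eq_one_of_dvd_coprimes
      ((hp.coprime_iff_not_dvd.mpr P.not_dvd_index).pow_left k) h1 h3
  have hVp : IsPGroup 2 V := fun v => ⟨1, Subtype.ext (by
    show ((v : G)) ^ 2 ^ 1 = 1
    rw [pow_one, pow_two]; exact (hV v).1 v.2)⟩
  have hcomm : ∀ v ∈ V, (∀ x ∈ PG, Commute x v) → ∀ l ∈ L, Commute l v := by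
    intro v hv hPv l hl
    rw [← hsup] at hl
    refine Subgroup.mem_centralizer_singleton_iff.1
      ((sup_le (a := C) (b := PG) (c := Subgroup.centralizer {v}) ?_ ?_) hl)
    · exact fun c hc => Subgroup.mem_centralizer_singleton_iff.2
        (Subgroup.mem_centralizer_iff.1 hc v hv).symm
    · exact fun x hx => Subgroup.mem_centralizer_singleton_iff.2 (hPv x hx).eq
  have hPGp : IsPGroup p PG := P.2.map L.subtype
  rcases eq_or_ne p 2 with rfl | hp2
  · set T := PG ⊔ V
    have hTp : IsPGroup 2 T := hPGp.to_sup_of_normal_right hVp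
    have hVT : V.subgroupOf T ≠ ⊥ := fun h => hV1 (by
      have h' := Subgroup.map_subgroupOf_eq_of_le (le_sup_right : V ≤ T)
      rw [h, Subgroup.map_bot] at h'
      exact h'.symm)
    obtain ⟨v, hv, hv1⟩ := (Subgroup.bot_or_exists_ne_one _).resolve_left
      (PGroup.inf_center_ne_bot hTp (V.subgroupOf T) hVT)
    refine hfix v hv.1 (fun h => hv1 (Subtype.ext h)) (hcomm v hv.1 fun x hx => ?_)
    exact congrArg Subtype.val (Subgroup.mem_center_iff.1 hv.2 ⟨x, Subgroup.mem_sup_left hx⟩)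
  · set N := Subgroup.normalizer (PG : Set G) with hN
    have htop : N ⊔ C = ⊤ := by
      have h := Sylow.normalizer_sup_eq_top P
      rw [← hPG] at h
      rw [← h, ← hN, ← hsup, sup_comm C, ← sup_assoc,
        sup_eq_left.mpr (Subgroup.le_normalizer (H := PG))]
    have hdvd : C.index ∣ Nat.card N := by
      have : C.index = C.relIndex N := by
        rw [← Subgroup.relIndex_top_right, ← htop, Subgroup.relIndex_sup_right]
      rw [this]
      exact Subgroup.relIndex_dvd_card _ _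
    obtain ⟨⟨t, htN⟩, ht⟩ := exists_prime_orderOf_dvd_card' (G := N) 2 (h2.trans hdvd)
    rw [Subgroup.orderOf_mk] at ht
    have ht1 : t ≠ 1 := fun h => by rw [h, orderOf_one] at ht; omega
    have htV : t ∈ V := (hV t).2 (by rw [← pow_two, ← ht, pow_orderOf_eq_one])
    refine hfix t htV ht1 (hcomm t htV fun x hx => ?_)
    have h1 : t * x * t⁻¹ * x⁻¹ ∈ PG :=
      mul_mem ((Subgroup.mem_normalizer_iff.1 htN x).1 hx) (inv_mem hx)
    have h3 : t * x * t⁻¹ * x⁻¹ ∈ V := by
      rw [show t * x * t⁻¹ * x⁻¹ = t * (x * t⁻¹ * x⁻¹) by group]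
      exact mul_mem htV ((inferInstance : V.Normal).conj_mem _ (inv_mem htV) x)
    have h4 : t * x * t⁻¹ * x⁻¹ = 1 := by
      obtain ⟨j, hj⟩ := hPGp ⟨_, h1⟩
      refine orderOf_eq_one_iff.1 (Nat.eq_one_of_dvd_coprimes ?_
        (orderOf_dvd_two ((hV _).1 h3))
        (orderOf_dvd_of_pow_eq_one (congrArg Subtype.val hj)))
      exact ((Nat.coprime_primes Nat.prime_two hp).2 (Ne.symm hp2)).pow_right j
    show x * t = t * x
    calc x * t = (t * x * t⁻¹ * x⁻¹) * (x * t) := by rw [h4, one_mul]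
      _ = t * x := by group

/-- 2-subgroups centralise the involutions. -/
theorem le_centralizer_of_isPGroup [Group.IsSolvable G] (hconj : OneClass G) {V : Subgroup G}
    [V.Normal] (hV : ∀ x, x ∈ V ↔ x * x = 1) (hV1 : V ≠ ⊥) {S : Subgroup G}
    (hS : IsPGroup 2 S) : S ≤ Subgroup.centralizer (V : Set G) := by
  haveI : Fact (Nat.Prime 2) := ⟨Nat.prime_two⟩
  exact PLength.sylow_le_of_index_coprime
    ((Nat.Prime.coprime_iff_not_dvd Nat.prime_two).2
      (not_two_dvd_index_centralizer hconj hV hV1)).symm hS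

/-- An element of odd order centralising the involutions but not the 2-core makes it special. -/
theorem sq_mem_of_odd [Group.IsSolvable G] (hO : pPrimeCore 2 G = ⊥) (hconj : OneClass G)
    {V : Subgroup G} [V.Normal] (hV : ∀ x, x ∈ V ↔ x * x = 1) {u : G}
    (hu : u ∈ Subgroup.centralizer (V : Set G)) (hodd : Odd (orderOf u)) (hu1 : u ≠ 1) :
    ∀ y ∈ pCore 2 G, y * y ∈ V := by
  haveI : Fact (Nat.Prime 2) := ⟨Nat.prime_two⟩
  haveI := SolvableCore.pCore_normal' 2 G
  set Q := pCore 2 G with hQ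
  have hQp : IsPGroup 2 Q := Constrained.isPGroup_pCore
  obtain ⟨D, hD⟩ := PGroup.exists_criticalSubgroup hQp
  haveI := hD.characteristic
  set DG := D.map Q.subtype with hDG
  haveI hDn : DG.Normal := ConjAct.normal_of_characteristic_of_normal
  have hDQ : DG ≤ Q := Subgroup.map_subtype_le _
  set Zd := Q ⊓ Subgroup.centralizer (DG : Set G) with hZd
  haveI hZn : Zd.Normal := inferInstance
  have hZmem : ∀ y : Q, y ∈ Subgroup.centralizer (D : Set Q) → (y : G) ∈ Zd := by
    intro y hy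
    refine ⟨y.2, Subgroup.mem_centralizer_iff.2 ?_⟩
    rintro _ ⟨d, hd, rfl⟩
    exact congrArg Subtype.val (Subgroup.mem_centralizer_iff.1 hy d hd)
  have hZD : Zd ≤ DG := by
    rintro y ⟨hyQ, hyC⟩
    refine ⟨⟨y, hyQ⟩, hD.centralizer_le (Subgroup.mem_centralizer_iff.2 fun d hd => ?_), rfl⟩
    exact Subtype.ext (Subgroup.mem_centralizer_iff.1 hyC _ (Subgroup.mem_map_of_mem _ hd))
  have hZc : ∀ a ∈ Zd, ∀ b ∈ DG, Commute b a := fun a ha b hb =>
    Subgroup.mem_centralizer_iff.1 ha.2 b hb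
  have hVZ : V ≤ Zd := fun v hv =>
    ⟨(sq_one_mem hO hconj ((hV v).1 hv)).1,
      Subgroup.centralizer_le hDQ (sq_one_mem hO hconj ((hV v).1 hv)).2⟩
  have huV : ∀ v ∈ V, Commute u v := fun v hv => (Subgroup.mem_centralizer_iff.1 hu v hv).symm
  have hcop : ∀ y ∈ Q, (orderOf u).Coprime (orderOf y) := by
    intro y hy
    obtain ⟨k, hk⟩ := IsPGroup.iff_orderOf.1 hQp ⟨y, hy⟩
    rw [Subgroup.orderOf_mk] at hk
    rw [hk]
    exact (Nat.coprime_two_right.2 hodd).pow_right k
  -- `u` fixes the centre of the critical subgroup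
  have hfix : ∀ k : ℕ, ∀ z ∈ Zd, z ^ 2 ^ k = 1 → Commute u z := by
    intro k
    induction k with
    | zero => intro z _ h; rw [pow_zero, pow_one] at h; rw [h]; exact Commute.one_right u
    | succ k ih =>
      intro z hz h
      have h2 : Commute u (z * z) := ih _ (mul_mem hz hz) (by
        rw [← pow_two, ← pow_mul, ← pow_succ']; exact h)
      set w := u * z * u⁻¹ * z⁻¹ with hw
      have hz' : u * z * u⁻¹ ∈ Zd := hZn.conj_mem z hz u
      have hwQ : w ∈ Zd := mul_mem hz' (inv_mem hz)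
      have hcm : Commute (u * z * u⁻¹) z⁻¹ :=
        (hZc _ (inv_mem hz) _ (hZD hz'))
      have hwV : w ∈ V := by
        rw [hV, hw, hcm.symm.mul_mul_mul_comm,
          show u * z * u⁻¹ * (u * z * u⁻¹) = u * (z * z) * u⁻¹ by group, h2.eq,
          mul_inv_cancel_right]
        group
      exact Coprime.commute_of_commute_commutator (huV w hwV).eq (hcop w hwQ.1)
  have hfixZ : ∀ z ∈ Zd, Commute u z := fun z hz => by
    obtain ⟨k, hk⟩ := hQp ⟨z, hz.1⟩
    exact hfix k z hz (congrArg Subtype.val hk)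
  -- `u` moves the critical subgroup
  obtain ⟨x, hx, hxu⟩ : ∃ x ∈ DG, ¬ Commute u x := by
    by_contra hall
    push Not at hall
    have huC : u ∈ Subgroup.centralizer (Q : Set G) := by
      rw [Subgroup.mem_centralizer_iff]
      intro y hy
      set w := u * y * u⁻¹ * y⁻¹ with hw
      have hwQ : w ∈ Q :=
        mul_mem ((inferInstance : Q.Normal).conj_mem y hy u) (inv_mem hy)
      have hwZ : w ∈ Zd := by
        refine ⟨hwQ, Subgroup.mem_centralizer_iff.2 fun c hc => ?_⟩
        have h1 : Commute u (y⁻¹ * c * y) := hall _ (by simpa using hDn.conj_mem c hc y⁻¹)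
        have h2 : Commute u c := hall c hc
        have h3 : w * c * w⁻¹ = c := by
          calc w * c * w⁻¹ = u * y * (u⁻¹ * (y⁻¹ * c * y) * u) * y⁻¹ * u⁻¹ := by rw [hw]; group
            _ = u * y * (y⁻¹ * c * y) * y⁻¹ * u⁻¹ := by
              rw [show u⁻¹ * (y⁻¹ * c * y) * u = u⁻¹ * ((y⁻¹ * c * y) * u) by group, ← h1.eq,
                inv_mul_cancel_left]
            _ = u * c * u⁻¹ := by group
            _ = c := by rw [h2.eq, mul_inv_cancel_right]
        exact (mul_inv_eq_iff_eq_mul.mp h3).symm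
      exact (Coprime.commute_of_commute_commutator (hfixZ w hwZ).eq (hcop w hwQ)).symm
    have huQ := SolvableCore.centralizer_pCore_le hO huC
    obtain ⟨k, hk⟩ := IsPGroup.iff_orderOf.1 hQp ⟨u, huQ⟩
    rw [Subgroup.orderOf_mk] at hk
    refine hu1 (orderOf_eq_one_iff.1 ?_)
    exact Nat.eq_one_of_dvd_coprimes ((Nat.coprime_two_right.2 hodd).pow_right k)
      dvd_rfl (dvd_of_eq hk)
  set l := u * x * u⁻¹ * x⁻¹ with hl
  have hlD : l ∈ DG := mul_mem (hDn.conj_mem x hx u) (inv_mem hx)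
  have hlZ : l ∉ Zd := fun h =>
    hxu (Coprime.commute_of_commute_commutator (hfixZ l h).eq (hcop l h.1))
  have hsqD : ∀ y ∈ DG, y * y ∈ Zd := by
    rintro _ ⟨d, hd, rfl⟩
    have := hZmem _ (hD.pow_mem d hd)
    rwa [pow_two] at this
  have hxl : x * l * x⁻¹ = l⁻¹ := by
    have h1 : u * (x * x) * u⁻¹ = x * x := by
      rw [(hfixZ _ (hsqD x hx)).eq, mul_inv_cancel_right]
    have h2 : l * x * (l * x) = x * x := by
      rw [← h1, hl]; group
    calc x * l * x⁻¹ = l⁻¹ * (l * x * (l * x)) * x⁻¹ * x⁻¹ := by group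
      _ = l⁻¹ * (x * x) * x⁻¹ * x⁻¹ := by rw [h2]
      _ = l⁻¹ := by group
  have hl4 : l * l * (l * l) = 1 := by
    have h1 : x * (l * l) * x⁻¹ = l * l := by
      rw [(hZc _ (hsqD l hlD) x hx).eq, mul_inv_cancel_right]
    have h2 : x * (l * l) * x⁻¹ = l⁻¹ * l⁻¹ := by
      rw [← hxl]; group
    calc l * l * (l * l) = (x * (l * l) * x⁻¹) * (l * l) := by rw [h1]
      _ = 1 := by rw [h2]; group
  -- the centre of the critical subgroup is `V`
  have hZV : ∀ z ∈ Zd, z * z = 1 := by
    intro z hz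
    by_contra hz1
    obtain ⟨k, hk⟩ := IsPGroup.iff_orderOf.1 hQp ⟨z, hz.1⟩
    rw [Subgroup.orderOf_mk] at hk
    obtain ⟨j, rfl⟩ : ∃ j, k = j + 2 := by
      refine ⟨k - 2, ?_⟩
      by_contra hlt
      refine hz1 ?_
      rw [← pow_two]
      refine orderOf_dvd_iff_pow_eq_one.1 (hk ▸ ?_)
      calc 2 ^ k ∣ 2 ^ 1 := pow_dvd_pow 2 (by omega)
        _ = 2 := pow_one 2
    set w := z ^ 2 ^ j with hw
    have hwo : orderOf (w * w) = 2 := by
      rw [hw, ← pow_add, ← two_mul, ← pow_succ', orderOf_pow' _ (by positivity), hk,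
        Nat.gcd_eq_right (pow_dvd_pow 2 (by omega)), Nat.pow_div (by omega) (by norm_num),
        show j + 2 - (j + 1) = 1 by omega, pow_one]
    have hll : l * l ≠ 1 := fun h => hlZ (hVZ ((hV l).2 h))
    obtain ⟨g, hg⟩ := isConj_iff.1 (hconj (w * w) (l * l)
      (fun h => by rw [h, orderOf_one] at hwo; omega)
      (by rw [← hwo, pow_orderOf_eq_one]) hll (by rw [pow_two]; exact hl4))
    have hz' : g * w * g⁻¹ ∈ Zd := hZn.conj_mem w (pow_mem hz _) g
    have hc : Commute l (g * w * g⁻¹)⁻¹ := hZc _ (inv_mem hz') l hlD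
    refine hlZ ?_
    have hmem : l * (g * w * g⁻¹)⁻¹ ∈ V := by
      rw [hV, hc.symm.mul_mul_mul_comm, ← hg]
      group
    have := mul_mem (hVZ hmem) hz'
    rwa [inv_mul_cancel_right] at this
  intro y hy
  rw [hV]
  refine hZV _ ⟨mul_mem hy hy, Subgroup.mem_centralizer_iff.2 ?_⟩
  intro c hc
  obtain ⟨d, hd, rfl⟩ := hc
  set k := y * (d : G) * y⁻¹ * (d : G)⁻¹ with hk
  have hkZ : k ∈ Zd := by
    have := hZmem _ (hD.commutator_mem ⟨y, hy⟩ d hd)
    simpa [commutatorElement_def, hk] using this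
  have hyk : Commute y k :=
    Subgroup.mem_centralizer_iff.1 (sq_one_mem hO hconj (hZV k hkZ)).2 y hy
  have h : y * y * (d : G) * (y * y)⁻¹ = d := by
    calc y * y * (d : G) * (y * y)⁻¹ = y * (k * d) * y⁻¹ := by rw [hk]; group
      _ = (y * k * y⁻¹) * (y * d * y⁻¹) := by group
      _ = k * (k * d) := by rw [hyk.eq, mul_inv_cancel_right, hk]; group
      _ = d := by rw [← mul_assoc, hZV k hkZ, one_mul]
  exact (mul_inv_eq_iff_eq_mul.mp h).symm

end CfsgLib.OneClassInvolutions
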